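import Cfsg.Agent.H9.G2Local
import Cfsg.Agent.H9.FxFour

/-! Recognition of `G₂(2)`: the two point stabilizer on the Sylow 3-subgroups. -/

set_option autoImplicit false

namespace Cfsg.Agent.G22

open Subgroup Cfsg.Agent.H7 Cfsg.Agent.Fx4 Cfsg.Agent.H3
open MulAction (stabilizer)
open MulAut (conj)
open scoped Pointwise

universe u
variable {G : Type u} [Group G] {a b c d g s t v w x y z : G}

theorem comm_cl (h : c * y = y * c) (x : G) : x * c * y * (x * c)⁻¹ = x * y * x⁻¹ := by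
  rw [mul_assoc x, h]; group

theorem comm_cr (h : c * x = x * c) (y : G) :
    x * (y * c) * x⁻¹ * (y * c)⁻¹ = x * y * x⁻¹ * y⁻¹ := by
  calc _ = x * y * (c * x⁻¹ * c⁻¹) * y⁻¹ := by group
    _ = _ := by rw [(Commute.inv_right h).eq, mul_inv_cancel_right]

variable [Finite G] {N K : Subgroup G} {χ : G → ℂ} {P Q R : Sylow 3 G}

theorem mem_norm_of_smul (h : g • P = P) : g ∈ N[(P : Subgroup G)] :=
  Sylow.smul_eq_iff_mem_normalizer.mp h

theorem smul_eq_of_mem (h : g ∈ (P : Subgroup G)) : g • P = P :=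
  Sylow.smul_eq_iff_mem_normalizer.mpr (le_normalizer h)

namespace Ex

variable {P : Subgroup G} (e : Ex P z)
include e

theorem zle : zpowers z ≤ P := zpowers_le.mpr e.mem

theorem cz (hd : d ∈ zpowers z) (hy : y ∈ P) : d * y = y * d :=
  mem_cent1_iff.mp (zpowers_le.mpr (mem_cent1_comm.mp (e.cent hy)) hd)

theorem norm (hg : g ∈ N[P]) : g ∈ N[zpowers z] := by
  have : g * z * g⁻¹ ∈ zpowers z := e.ctr _ (conj_mem_of_norm hg e.mem) fun y hy => by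
    have := mem_cent1_iff.mp (e.cent (conj_mem_of_norm' hg hy))
    rw [mem_cent1_iff]
    calc _ = g * (g⁻¹ * y * g * z) * g⁻¹ := by group
      _ = _ := by rw [this]; group
  refine mem_norm_of_conj ?_
  rintro _ ⟨k, rfl⟩
  simp only [← conj_zpow]
  exact zpow_mem this k

theorem of_mem (h3 : z ^ 3 = 1) (hd : d ∈ zpowers z) (h1 : d ≠ 1) : Ex P d := by
  have := zpowers_eq_of_card_prime (card_zp3 e.ne h3 ▸ Nat.prime_three) hd h1
  exact ⟨e.zle hd, h1, fun y hy => mem_cent1_iff.mpr (e.cz hd hy).symm, this ▸ e.comm,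
    this ▸ e.ctr, this ▸ e.na⟩

theorem mem_of_sq (h3 : y ^ 3 = 1) (hy : y ∈ P) (hd : d ∈ zpowers z)
    (h : y * d * y ∈ zpowers z) : y ∈ zpowers z := by
  rw [← e.cz hd hy, mul_assoc, ← pow_two, sq_eq_inv h3] at h
  simpa using (mul_mem_cancel_left hd).mp h

end Ex

namespace Dat

variable (h : Dat N χ)
include h

theorem exists_ex (P : Sylow 3 G) : ∃ z, Ex (P : Subgroup G) z :=
  G22.exists_ex (h.cardP P) (h.not_comm P)

theorem inj (hne : P ≠ Q) (hx : x ∈ (P : Subgroup G)) (hy : y ∈ (P : Subgroup G))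
    (e : x • Q = y • Q) : x = y := by
  have := h.eq_one_of_smul (mul_mem (inv_mem hx) hy) hne (by rw [mul_smul, ← e, inv_smul_smul])
  exact inv_mul_eq_one.mp this

theorem smul_ne (hne : P ≠ Q) (hx : x • P = P) : P ≠ x • Q := fun e =>
  hne (MulAction.injective x (hx.trans e))

theorem trans (hQ : P ≠ Q) (hR : P ≠ R) : ∃ y ∈ (P : Subgroup G), y • Q = R := by
  have : (fun y : G => y • Q) '' (P : Subgroup G) = {P}ᶜ := by
    refine Set.eq_of_subset_of_ncard_le ?_ ?_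
    · rintro _ ⟨y, hy, rfl⟩
      exact (h.smul_ne hQ (smul_eq_of_mem hy)).symm
    · rw [Set.ncard_compl, Set.ncard_singleton, h.card_syl, Set.InjOn.ncard_image
        fun x hx y hy => h.inj hQ hx hy, ← Nat.card_coe_set_eq, SetLike.coe_sort_coe, h.cardP]
  exact (this ▸ hR.symm : R ∈ (fun y : G => y • Q) '' (P : Subgroup G))

theorem conj_eq (hne : P ≠ Q) (hP : g • P = P) (hQ : g • Q = Q) (hx : x ∈ (P : Subgroup G))
    (hy : y ∈ (P : Subgroup G)) (e : g • x • Q = y • Q) : g * x * g⁻¹ = y :=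
  h.inj hne (conj_mem_of_norm (mem_norm_of_smul hP) hx) hy (by
    rw [mul_smul, mul_smul, ← e, inv_smul_eq_iff.mpr hQ.symm])

theorem cardH (hne : P ≠ Q) : Nat.card ↥(stabilizer G P ⊓ stabilizer G Q) = 16 := by
  have h1 := card_le_orbit (stabilizer G P) Q (T := {P}ᶜ) fun w hw => (h.smul_ne hne hw).symm
  have h0 : Nat.card (stabilizer G P) = 432 := by
    rw [P.stabilizer_eq_normalizer]; exact h.card_norm P
  rw [Set.ncard_compl, Set.ncard_singleton, h.card_syl, h0, inf_comm] at h1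
  have h2 := card_sup_of_inf_eq_bot (A := P) (B := stabilizer G P ⊓ stabilizer G Q)
    (fun g hg => mem_norm_of_smul hg.1)
    (inf_eq_bot_of_forall fun x hx hx' => h.eq_one_of_smul hx hne hx'.2)
  have h3 : Nat.card ↥((P : Subgroup G) ⊔ stabilizer G P ⊓ stabilizer G Q) ≤ 432 :=
    h0 ▸ card_le_of_le' (sup_le (fun g hg => smul_eq_of_mem hg) inf_le_left)
  rw [h2, h.cardP] at h3
  omega

theorem pgH (hne : P ≠ Q) : IsPGroup 2 ↥(N ⊓ (stabilizer G P ⊓ stabilizer G Q)) :=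
  (IsPGroup.of_card (n := 4) (h.cardH hne)).to_le inf_le_right

theorem mem_of_comm (e : Ex (P : Subgroup G) z) (hv : v ∈ N) (v1 : v ≠ 1) (v2 : v * v = 1)
    (hy : y ∈ (P : Subgroup G)) (hc : v * y = y * v) : y ∈ zpowers z := by
  by_contra hz
  refine h.odd_cent e hy hz ?_
  rw [← orderOf_eq_prime (p := 2) (by rw [pow_two, v2]) v1]
  exact orderOf_dvd_card_of_mem ⟨mem_cent1_iff.mpr hc, hv⟩

theorem inverts (e : Ex (P : Subgroup G) z) (hv : v ∈ N) (v1 : v ≠ 1) (v2 : v * v = 1)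
    (hP : v • P = P) (hy : y ∈ (P : Subgroup G)) :
    ∃ d ∈ zpowers z, v * y * v⁻¹ = y⁻¹ * d := by
  have hn := mem_norm_of_smul hP
  have hy' := conj_mem_of_norm hn hy
  have hd := e.comm _ hy' _ hy
  have vv : ∀ x, v * (v * x * v⁻¹) * v⁻¹ = x := fun x => by rw [conj_conj, v2]; simp
  set u := y * (v * y * v⁻¹) with hu
  set d := v * y * v⁻¹ * y * (v * y * v⁻¹)⁻¹ * y⁻¹ with hd'
  have h1 : v * u * v⁻¹ = d * u := by rw [hu, ← conj_mul, vv, hd']; group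
  have h2 : v * d * v⁻¹ = d⁻¹ := by
    have := vv u
    rw [h1, ← conj_mul, h1, ← mul_assoc, mul_eq_right] at this
    exact eq_inv_of_mul_eq_one_left this
  have h3 : v * (d⁻¹ * u) * v⁻¹ = d⁻¹ * u := by
    rw [← conj_mul, ← conj_inv, h2, h1, inv_inv, ← mul_assoc, ← pow_two,
      sq_eq_inv (h.pow3 (e.zle hd))]
  have h4 := h.mem_of_comm e hv v1 v2 (mul_mem (inv_mem (e.zle hd)) (mul_mem hy hy'))
    (mul_inv_eq_iff_eq_mul.mp h3)
  exact ⟨u, (mul_mem_cancel_left (inv_mem hd)).mp h4, by rw [hu, inv_mul_cancel_left]⟩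

theorem invol_cent (e : Ex (P : Subgroup G) z) (hv : v ∈ N) (v1 : v ≠ 1) (v2 : v * v = 1)
    (hP : v • P = P) (hd : d ∈ zpowers z) : v * d * v⁻¹ = d := by
  obtain ⟨a, ha, hz⟩ := e.na
  obtain ⟨b, hb, hab⟩ : ∃ b ∈ (P : Subgroup G), b ∉ C₁[a] := by
    by_contra! hh
    exact hz (e.ctr a ha hh)
  obtain ⟨c₁, h1, h2⟩ := h.inverts e hv v1 v2 hP ha
  obtain ⟨c₂, h3, h4⟩ := h.inverts e hv v1 v2 hP hb
  have h5 := e.comm a ha b hb
  have h6 : v * (a * b * a⁻¹ * b⁻¹) * v⁻¹ = a * b * a⁻¹ * b⁻¹ := by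
    rw [← conj_mul, ← conj_mul, ← conj_mul, ← conj_inv, ← conj_inv, h2, h4,
      comm_cl (e.cz h1 (mul_mem (inv_mem hb) (e.zle h3))), ← inv_inv a⁻¹⁻¹, inv_inv a⁻¹⁻¹,
      comm_cr (e.cz h3 (inv_mem ha))]
    calc _ = (b * a)⁻¹ * (a * b * a⁻¹ * b⁻¹ * (b * a)) := by group
      _ = _ := by rw [e.cz h5 (mul_mem hb ha), inv_mul_cancel_left]
  have e' := e.of_mem (h.pow3 e.mem) h5 fun k => hab (mem_cent1_iff.mpr (by
    rw [mul_inv_eq_one, mul_inv_eq_iff_eq_mul] at k; exact k.symm))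
  rw [← zpowers_eq_of_card_prime (card_zp3 e.ne (h.pow3 e.mem) ▸ Nat.prime_three) h5 e'.ne] at hd
  obtain ⟨k, rfl⟩ := hd
  simp only [← conj_zpow, h6]

theorem card_ge (hne : P ≠ Q) : 8 ≤ Nat.card ↥(N ⊓ (stabilizer G P ⊓ stabilizer G Q)) := by
  have := h.card_le_two_mul (stabilizer G P ⊓ stabilizer G Q)
  rw [h.cardH hne] at this
  omega

theorem exists_invol (hne : P ≠ Q) : ∃ s ∈ N, s ≠ 1 ∧ s * s = 1 ∧ s • P = P ∧ s • Q = Q ∧
    ∀ v ∈ N, v ≠ 1 → v * v = 1 → v • P = P → v • Q = Q → v = s := by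
  obtain ⟨z, e⟩ := h.exists_ex P
  obtain ⟨s, hs, s1, s2, s3⟩ := exists_central' (h.pgH hne) le_rfl (le_norm_self _) fun k => by
    have := h.card_ge hne
    rw [k, card_bot] at this
    omega
  refine ⟨s, hs.1, s1, s2, hs.2.1, hs.2.2, fun v hv v1 v2 hP hQ => ?_⟩
  by_contra hvs
  have hc := comm_of_mem_cent s3 (x := v) ⟨hv, hP, hQ⟩
  obtain ⟨y, hy, hz⟩ := e.na
  obtain ⟨c₁, h1, h2⟩ := h.inverts e hs.1 s1 s2 hs.2.1 hy
  obtain ⟨c₂, h3, h4⟩ := h.inverts e hv v1 v2 hP hy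
  obtain ⟨c₃, h5, h6⟩ := h.inverts e (mul_mem hv hs.1) (fun k => hvs (by
    rw [eq_inv_of_mul_eq_one_left k, inv_eq_of_mul_eq_one_right s2]))
    (by rw [mul_assoc, ← mul_assoc s, ← hc, mul_assoc, s2, mul_one, v2])
    (by rw [mul_smul, show s • P = P from hs.2.1, hP]) hy
  rw [← conj_conj, h2, ← conj_mul, ← conj_inv, h4, h.invol_cent e hv v1 v2 hP h1] at h6
  refine hz (e.mem_of_sq (h.pow3 hy) hy (inv_mem h3) ?_)
  have : y * c₂⁻¹ * y = c₃ * c₁⁻¹ := by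
    rw [← mul_inv_cancel_left y c₃, ← h6]; group
  exact this ▸ mul_mem h5 (inv_mem h1)

theorem uniq (hne : P ≠ Q) (hv : v ∈ N) (v1 : v ≠ 1) (v2 : v * v = 1) (vP : v • P = P)
    (vQ : v • Q = Q) (hs : s ∈ N) (s1 : s ≠ 1) (s2 : s * s = 1) (sP : s • P = P)
    (sQ : s • Q = Q) : v = s := by
  obtain ⟨u, -, -, -, -, -, hu⟩ := h.exists_invol hne
  rw [hu v hv v1 v2 vP vQ, hu s hs s1 s2 sP sQ]

theorem exists_c (hne : P ≠ Q) (e : Ex (P : Subgroup G) z) :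
    Nat.card ↥(N ⊓ (stabilizer G P ⊓ stabilizer G Q)) = 8 ∧
      ∃ c ∈ N, c • P = P ∧ c • Q = Q ∧ c * z * c⁻¹ = z⁻¹ := by
  have z3 := h.pow3 e.mem
  have key : ∀ g : G, g • P = P → g * z * g⁻¹ = z ∨ g * z * g⁻¹ = z⁻¹ := fun g hg =>
    (mem_zpowers_three z3 (conj_mem_of_norm (e.norm (mem_norm_of_smul hg))
      (mem_zpowers z))).resolve_left (by simpa using e.ne)
  have h1 := card_le_cent_mul (N ⊓ (stabilizer G P ⊓ stabilizer G Q)) z (T := {z, z⁻¹})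
    fun w hw => key w hw.2.1
  have h2 := h.card_ge hne
  have h3 : ¬ 8 ∣ Nat.card ↥(C₁[z] ⊓ (N ⊓ (stabilizer G P ⊓ stabilizer G Q))) := fun k =>
    h.not_eight e.ne z3 (k.trans (card_dvd_of_le (inf_le_inf_left _ inf_le_left)))
  obtain ⟨j, hj, h4⟩ := (Nat.dvd_prime_pow Nat.prime_two (m := 4)).mp (h.cardH hne ▸ card_dvd_of_le
    (inf_le_right.trans inf_le_right : C₁[z] ⊓ (N ⊓ (stabilizer G P ⊓ stabilizer G Q)) ≤ _))
  have h5 := Nat.mul_le_mul_left (2 ^ j) (Set.ncard_insert_le z {z⁻¹})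
  rw [Set.ncard_singleton] at h5
  have h6 : 2 ^ j ≤ 4 := by rw [h4] at h3; interval_cases j <;> omega
  refine ⟨by rw [h4] at h1; omega, ?_⟩
  by_contra! hh
  rw [inf_eq_right.mpr fun g hg => mem_cent1_iff.mpr (mul_inv_eq_iff_eq_mul.mp
    ((key g hg.2.1).resolve_right (hh g hg.1 hg.2.1 hg.2.2)))] at h4
  omega

theorem mem_of_comm2 (e : Ex (P : Subgroup G) z) (ha : a ∈ (P : Subgroup G)) (hz : a ∉ zpowers z)
    (hy : y ∈ (P : Subgroup G)) (hc : y * a = a * y) :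
    ∃ d ∈ zpowers z, y = d ∨ y = a * d ∨ y = a⁻¹ * d := by
  have h1 : y ∈ zpowers a ⊔ zpowers z :=
    h.cent_eq e ha hz ▸ ⟨mem_cent1_iff.mpr hc, h.le_N P hy⟩
  obtain ⟨x, hx, d, hd, rfl⟩ := (mem_sup_of_norm (le_norm_zpowers
    (zpowers_le.mpr (mem_cent1_comm.mp (e.cent ha))))).mp h1
  refine ⟨d, hd, ?_⟩
  rcases mem_zpowers_three (h.pow3 ha) hx with k | k | k <;> simp [k]

end Dat

/-- generators of the stabilizer of a point in `N` -/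
structure Base (N : Subgroup G) (P Q : Sylow 3 G) (a c b z : G) : Prop where
  ne : P ≠ Q
  ex : Ex (P : Subgroup G) z
  aP : a ∈ (P : Subgroup G)
  aZ : a ∉ zpowers z
  zp : zpowers c = N ⊓ (stabilizer G P ⊓ stabilizer G Q)
  c8 : c ^ 8 = 1
  c4 : c ^ 4 ≠ 1
  e5 : c ^ 4 * a * c ^ 4 = a⁻¹
  e6 : c * a * c⁻¹ = b
  e7 : a * b * a⁻¹ * b⁻¹ = z
  e10 : c * z * c⁻¹ = z⁻¹

theorem not_sq {P : Subgroup G} (e : Ex P z) (a3 : a ^ 3 = 1) (ha : a ∈ P) (hz : a ∉ zpowers z)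
    (hc : c ∈ N[P]) (hs : c * a * c⁻¹ = a⁻¹ ∨ c * c * a * (c * c)⁻¹ = a⁻¹) (hd : d ∈ zpowers z) :
    c * a * c⁻¹ ≠ a * d := fun k => hz (by
  rcases hs with hs | hs
  · refine e.mem_of_sq a3 ha hd ?_
    rw [← k, hs, inv_mul_cancel]
    exact one_mem _
  · refine e.mem_of_sq a3 ha (mul_mem hd (conj_mem_of_norm (e.norm hc) hd)) ?_
    rw [← mul_assoc a, ← k, conj_mul, ← k, conj_conj, hs, inv_mul_cancel]
    exact one_mem _)

theorem Dat.exists_base (h : Dat N χ) (hne : P ≠ Q) : ∃ a c b z, Base N P Q a c b z := by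
  obtain ⟨z, e⟩ := h.exists_ex P
  obtain ⟨s, hs, s1, s2, sP, sQ, su⟩ := h.exists_invol hne
  obtain ⟨h8, c, hc, cP, cQ, cz⟩ := h.exists_c hne e
  obtain ⟨y, hy, hz⟩ := e.na
  obtain ⟨d, hd, sy⟩ := h.inverts e hs s1 s2 sP hy
  have z3 := h.pow3 e.mem
  have hn := mem_norm_of_smul cP
  have zz : ∀ {u : G}, u ∈ zpowers z → u ≠ 1 → u ≠ u⁻¹ := fun hu u1 k =>
    u1 (eq_one_of_sq_cube (mul_eq_one_iff_eq_inv.mpr k) (h.pow3 (e.zle hu)))
  set a := y * (s * y * s⁻¹)⁻¹ with ha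
  have aP : a ∈ (P : Subgroup G) :=
    mul_mem hy (inv_mem (conj_mem_of_norm (mem_norm_of_smul sP) hy))
  have aZ : a ∉ zpowers z := fun k => hz (e.mem_of_sq (h.pow3 hy) hy (inv_mem hd) (by
    rwa [ha, sy, mul_inv_rev, inv_inv, ← mul_assoc] at k))
  have sa : s * a * s⁻¹ = a⁻¹ := by
    simp only [ha, inv_eq_of_mul_eq_one_right s2, mul_inv_rev, inv_inv, mul_assoc, s2, mul_one,
      ← mul_assoc s s, one_mul]
  clear_value a
  have a3 := h.pow3 aP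
  have cm : zpowers c ≤ N ⊓ (stabilizer G P ⊓ stabilizer G Q) := zpowers_le.mpr ⟨hc, cP, cQ⟩
  have c8 : c ^ 8 = 1 := h8 ▸ pow_card_eq_one_of_mem (cm (mem_zpowers c))
  have key : ∀ i, c ^ i ≠ 1 → c ^ i * c ^ i = 1 → c ^ i = s := fun i h1 h2 =>
    have := cm (pow_mem (mem_zpowers c) i)
    su _ this.1 h1 h2 this.2.1 this.2.2
  have c2 : c ^ 2 ≠ 1 := fun k => by
    have c1 : c ≠ 1 := fun k => zz (mem_zpowers z) e.ne (by simpa [k] using cz)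
    rw [h.invol_cent e hc c1 (by rw [← pow_two, k]) cP (mem_zpowers z)] at cz
    exact zz (mem_zpowers z) e.ne cz
  have hs' : c ^ 2 = s ∨ c ^ 4 = s := by
    by_cases k : c ^ 4 = 1
    · exact Or.inl (key 2 c2 (by rw [← pow_add, k]))
    · exact Or.inr (key 4 k (by rw [← pow_add, c8]))
  have nsq : ∀ d ∈ zpowers z, c * (c * a * c⁻¹) * c⁻¹ ≠ a * d := fun d hd => by
    rw [conj_conj, ← pow_two]
    refine not_sq e a3 aP aZ (pow_mem hn 2) ?_ hd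
    rw [← pow_add]
    rcases hs' with k | k <;> simp [k, sa]
  have bP := conj_mem_of_norm hn aP
  have h1 := e.comm a aP _ bP
  have h2 : a * (c * a * c⁻¹) * a⁻¹ * (c * a * c⁻¹)⁻¹ ≠ 1 := fun k => by
    rw [mul_inv_eq_one, mul_inv_eq_iff_eq_mul] at k
    obtain ⟨d, hd, k | k | k⟩ := h.mem_of_comm2 e aP aZ bP k.symm
    · exact aZ (mem_of_conj_mem_of_norm (e.norm hn) (k ▸ hd))
    · exact nsq _ (mul_mem hd (conj_mem_of_norm (e.norm hn) hd)) (by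
        rw [k, ← conj_mul, k, mul_assoc])
    · exact nsq _ (mul_mem (inv_mem hd) (conj_mem_of_norm (e.norm hn) hd)) (by
        rw [k, ← conj_mul, ← conj_inv, k, mul_inv_rev, inv_inv, e.cz (inv_mem hd) aP, mul_assoc])
  have e' := e.of_mem z3 h1 h2
  have h3 := zpowers_eq_of_card_prime (card_zp3 e.ne z3 ▸ Nat.prime_three) h1 h2
  have h4 : c * (a * (c * a * c⁻¹) * a⁻¹ * (c * a * c⁻¹)⁻¹) * c⁻¹ =
      (a * (c * a * c⁻¹) * a⁻¹ * (c * a * c⁻¹)⁻¹)⁻¹ := by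
    rcases mem_zpowers_three z3 h1 with k | k | k
    · exact absurd k h2
    · rw [k, cz]
    · rw [k, ← conj_inv, cz]
  have h5 : c ^ 4 = s := hs'.resolve_left fun k => zz h1 h2 (by
    have k2 : c * (c * a * c⁻¹) * c⁻¹ = a⁻¹ := by rw [conj_conj, ← pow_two, k, sa]
    rw [← h4]
    calc _ = a⁻¹ * (a * (c * a * c⁻¹) * a⁻¹ * (c * a * c⁻¹)⁻¹ * a) := by
          rw [e.cz h1 aP, inv_mul_cancel_left]
      _ = c * a * c⁻¹ * a⁻¹ * (c * a * c⁻¹)⁻¹ * a⁻¹⁻¹ := by group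
      _ = c * a * c⁻¹ * (c * (c * a * c⁻¹) * c⁻¹) * (c * a * c⁻¹)⁻¹ *
          (c * (c * a * c⁻¹) * c⁻¹)⁻¹ := by rw [k2]
      _ = _ := by group)
  refine ⟨a, c, _, _, hne, e', aP, h3 ▸ aZ, eq_of_le_of_card_eq cm ?_, c8, h5 ▸ s1, ?_, rfl, rfl,
    h4⟩
  · rw [h8, Nat.card_zpowers, orderOf_eq_prime_pow (p := 2) (n := 2) (h5 ▸ s1) c8]
    rfl
  · rw [h5, ← sa, inv_eq_of_mul_eq_one_right s2]

namespace Base

variable (r : Base N P Q a c b z)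
include r

theorem mem (hg : g ∈ zpowers c) : g ∈ N ∧ g • P = P ∧ g • Q = Q := (r.zp ▸ hg : g ∈ N ⊓ _)

theorem cn : c ∈ N[(P : Subgroup G)] := mem_norm_of_smul (r.mem (mem_zpowers c)).2.1

theorem bP : b ∈ (P : Subgroup G) := r.e6 ▸ conj_mem_of_norm r.cn r.aP

theorem inv4 : (c ^ 4)⁻¹ = c ^ 4 := inv_eq_of_mul_eq_one_right (by rw [← pow_add, r.c8])

theorem sq4 : c ^ 4 * c ^ 4 = 1 := by rw [← pow_add, r.c8]

theorem sa : c ^ 4 * a * (c ^ 4)⁻¹ = a⁻¹ := by rw [r.inv4, r.e5]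

theorem si (i : ℕ) : c ^ 4 * (c ^ i * a * (c ^ i)⁻¹) * (c ^ 4)⁻¹ = (c ^ i * a * (c ^ i)⁻¹)⁻¹ := by
  rw [conj_inv, ← r.sa]; group

theorem sb : c ^ 4 * b * (c ^ 4)⁻¹ = b⁻¹ := by simpa [r.e6] using r.si 1

theorem sz : c ^ 4 * z * (c ^ 4)⁻¹ = z := by
  have h1 : c ^ 2 * z * (c ^ 2)⁻¹ = z := by
    rw [pow_two, ← conj_conj, r.e10, ← conj_inv, r.e10, inv_inv]
  rw [show 4 = 2 + 2 from rfl, pow_add, ← conj_conj, h1, h1]

theorem ab : a * b * a⁻¹ = z * b := by rw [← r.e7, inv_mul_cancel_right]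

theorem ba : b * a * b⁻¹ = z⁻¹ * a := by rw [← r.e7]; group

theorem flip : Base N P Q a (c ^ 5) b⁻¹ z⁻¹ ∧ c ^ 5 * b⁻¹ * (c ^ 5)⁻¹ = c * b * c⁻¹ := by
  have h1 : (c ^ 5) ^ 4 = c ^ 4 := by
    rw [← pow_mul, show 5 * 4 = 8 * 2 + 4 from rfl, pow_add, pow_mul, r.c8, one_pow, one_mul]
  have h2 : ∀ x, c ^ 5 * x * (c ^ 5)⁻¹ = c * (c ^ 4 * x * (c ^ 4)⁻¹) * c⁻¹ := fun x => by group
  refine ⟨⟨r.ne, ⟨inv_mem r.ex.mem, inv_ne_one.mpr r.ex.ne, fun y hy => mem_cent1_iff.mpr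
    (r.ex.cz (inv_mem (mem_zpowers z)) hy).symm, zpowers_inv (g := z) ▸ r.ex.comm,
    zpowers_inv (g := z) ▸ r.ex.ctr, zpowers_inv (g := z) ▸ r.ex.na⟩, r.aP,
    zpowers_inv (g := z) ▸ r.aZ, ?_, by rw [← pow_mul, mul_comm, pow_mul, r.c8, one_pow],
    h1 ▸ r.c4, h1 ▸ r.e5, by rw [h2, r.sa, ← conj_inv, r.e6], ?_,
    by rw [h2, ← conj_inv, r.sz, ← conj_inv, r.e10]⟩, by rw [h2, ← conj_inv, r.sb, inv_inv]⟩
  · rw [← r.zp]
    refine le_antisymm (zpowers_le.mpr (pow_mem (mem_zpowers c) 5)) (zpowers_le.mpr ?_)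
    have : (c ^ 5) ^ 5 = c := by
      rw [← pow_mul, show 5 * 5 = 8 * 3 + 1 from rfl, pow_succ, pow_mul, r.c8, one_pow, one_mul]
    nth_rewrite 2 [← this]
    exact pow_mem (mem_zpowers _) 5
  · rw [← conj_inv, r.ab, mul_inv_rev, ← r.ex.cz (inv_mem (mem_zpowers z)) (inv_mem r.bP),
      mul_inv_cancel_right]

variable (h : Dat N χ)
include h

theorem z_ne (hu : g ∈ zpowers z) (u1 : g ≠ 1) : g ≠ g⁻¹ := fun k =>
  u1 (eq_one_of_sq_cube (mul_eq_one_iff_eq_inv.mpr k) (h.pow3 (r.ex.zle hu)))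

theorem ctr2 (hy : y ∈ (P : Subgroup G)) (ha : a * y * a⁻¹ = y) (hb : b * y * b⁻¹ = y) :
    y ∈ zpowers z := by
  obtain ⟨d, hd, k | k | k⟩ := h.mem_of_comm2 r.ex r.aP r.aZ hy (mul_inv_eq_iff_eq_mul.mp ha).symm
  · exact k ▸ hd
  all_goals
    have h1 : b * d * b⁻¹ = d := by rw [← r.ex.cz hd r.bP, mul_inv_cancel_right]
    rw [k, ← conj_mul, h1, mul_left_inj] at hb
  · rw [r.ba, mul_eq_right, inv_eq_one] at hb
    exact absurd hb r.ex.ne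
  · rw [← conj_inv, inv_inj, r.ba, mul_eq_right, inv_eq_one] at hb
    exact absurd hb r.ex.ne

theorem nsq (hd : d ∈ zpowers z) : c * b * c⁻¹ ≠ a * d := by
  rw [← r.e6, conj_conj, ← pow_two]
  exact not_sq r.ex (h.pow3 r.aP) r.aP r.aZ (pow_mem r.cn 2)
    (Or.inr (by rw [← pow_add, r.sa])) hd

theorem b2 : b * (c * b * c⁻¹) * b⁻¹ = z⁻¹ * (c * b * c⁻¹) := by
  rw [← r.e10, ← r.e7]
  nth_rewrite 1 3 [← r.e6]
  group

theorem e11 (hd : a * (c * b * c⁻¹) * a⁻¹ = z * (c * b * c⁻¹)) : c * b * c⁻¹ = a * b * z := by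
  have hP := conj_mem_of_norm r.cn r.bP
  have hz := fun {y : G} (hy : y ∈ (P : Subgroup G)) => r.ex.cz (mem_zpowers z) hy
  have hz' := fun {y : G} (hy : y ∈ (P : Subgroup G)) => r.ex.cz (inv_mem (mem_zpowers z)) hy
  have s2 : c ^ 4 * (c * b * c⁻¹) * (c ^ 4)⁻¹ = (c * b * c⁻¹)⁻¹ := by
    rw [conj_inv, ← r.sb]; group
  have b2 := r.b2 h
  generalize c * b * c⁻¹ = x at *
  have hu := r.ctr2 h (y := x * (a * b)⁻¹) (mul_mem hP (inv_mem (mul_mem r.aP r.bP)))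
    (by
      rw [← conj_mul, ← conj_inv, ← conj_mul, hd, r.ab, mul_inv_cancel_right, ← mul_assoc a,
        ← hz r.aP, hz hP, mul_assoc z, hz (mul_mem r.aP r.bP)]
      group)
    (by
      rw [← conj_mul, ← conj_inv, ← conj_mul, b2, r.ba, mul_inv_cancel_right, hz' hP,
        mul_assoc z⁻¹, hz' (mul_mem r.aP r.bP)]
      group)
  obtain ⟨u, hx⟩ : ∃ u, x * (a * b)⁻¹ = u := ⟨_, rfl⟩
  rw [hx] at hu
  rw [mul_inv_eq_iff_eq_mul] at hx
  have h1 := h.invol_cent r.ex (r.mem (pow_mem (mem_zpowers c) 4)).1 r.c4 r.sq4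
    (r.mem (pow_mem (mem_zpowers c) 4)).2.1 hu
  rw [hx, ← conj_mul, ← conj_mul, h1, r.sa, r.sb] at s2
  have h2 : u ^ 2 = z⁻¹ := by
    rw [r.ex.cz hu (mul_mem (inv_mem r.aP) (inv_mem r.bP)), eq_inv_iff_mul_eq_one] at s2
    calc _ = b * a * (a⁻¹ * b⁻¹ * u * (u * (a * b))) * (a * b)⁻¹ := by rw [pow_two]; group
      _ = _ := by rw [s2, ← r.e7]; group
  rw [sq_eq_inv (h.pow3 (r.ex.zle hu)), inv_inj] at h2
  rw [hx, h2, hz (mul_mem r.aP r.bP)]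

end Base

theorem Dat.exists_base' (h : Dat N χ) (hne : P ≠ Q) :
    ∃ a c b z, Base N P Q a c b z ∧ c * b * c⁻¹ = a * b * z := by
  obtain ⟨a, c, b, z, r⟩ := h.exists_base hne
  have hP := conj_mem_of_norm r.cn r.bP
  rcases mem_zpowers_three (h.pow3 r.ex.mem) (r.ex.comm a r.aP _ hP) with k | k | k <;>
    rw [mul_inv_eq_iff_eq_mul] at k
  · have hu := r.ctr2 h (y := c * b * c⁻¹ * a⁻¹) (mul_mem hP (inv_mem r.aP))
      (by rw [← conj_mul, k]; group) (by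
        rw [← conj_mul, ← conj_inv, r.b2 h, r.ba,
          r.ex.cz (inv_mem (mem_zpowers z)) hP, r.ex.cz (inv_mem (mem_zpowers z)) r.aP]
        group)
    exact absurd (by rw [← r.ex.cz hu r.aP, inv_mul_cancel_right]) (r.nsq h hu)
  · exact ⟨a, c, b, z, r, r.e11 h k⟩
  · exact ⟨a, _, _, _, r.flip.1, r.flip.1.e11 h (by rw [r.flip.2, k])⟩

end Cfsg.Agent.G22
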