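import Cfsg.Agent.H9.G2Gen
import Cfsg.Agent.H9.G2Pres

/-! Recognition of `G₂(2)`: generators and relations. -/

set_option autoImplicit false

namespace Cfsg.Agent.G22

open Subgroup Cfsg.Agent.H7 Cfsg.Agent.Fx4 Cfsg.Agent.H3
open MulAction (stabilizer)
open MulAut (conj)
open scoped Pointwise

universe u
variable {G : Type u} [Group G] {a b c d g s t v w x y z : G}
variable [Finite G] {N K : Subgroup G} {χ : G → ℂ} {P Q R : Sylow 3 G}

theorem Dat.faithful (h : Dat N χ) (hne : P ≠ Q) (hg : ∀ R : Sylow 3 G, g • R = R) : g = 1 := by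
  have := h.nrm (MulAction.toPermHom G (Sylow 3 G)).ker inferInstance fun k => by
    have := k.trans (h.cardH hne ▸ card_dvd_of_le (show (MulAction.toPermHom G (Sylow 3 G)).ker ≤
      stabilizer G P ⊓ stabilizer G Q from fun x hx =>
      ⟨Equiv.congr_fun (MonoidHom.mem_ker.mp hx) P,
        Equiv.congr_fun (MonoidHom.mem_ker.mp hx) Q⟩))
    norm_num at this
  exact (this ▸ MonoidHom.mem_ker.mpr (Equiv.ext hg) : g ∈ (⊥ : Subgroup G))

theorem Dat.fix_le (h : Dat N χ) (hne : P ≠ Q) (hv : v ∈ N) (v1 : v ≠ 1) (v2 : v * v = 1)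
    (vP : v • P = P) (vQ : v • Q = Q) : {R : Sylow 3 G | v • R = R}.ncard ≤ 4 := by
  have h1 : {R : Sylow 3 G | v • R = R} ⊆
      insert P ((fun y : G => y • Q) '' (C₁[v] ⊓ P : Subgroup G)) := fun R hR => by
    by_cases k : P = R
    · exact Or.inl k.symm
    obtain ⟨y, hy, rfl⟩ := h.trans hne k
    exact Or.inr ⟨y, ⟨mem_cent1_iff.mpr
      (mul_inv_eq_iff_eq_mul.mp (h.conj_eq hne vP vQ hy hy hR)).symm, hy⟩, rfl⟩
  have h2 := Nat.le_of_dvd (by norm_num) (h.plane (Q := C₁[v] ⊓ P) hv v1 v2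
    (fun y hy => h.pow3 hy.2) inf_le_left)
  refine (Set.ncard_le_ncard h1).trans ((Set.ncard_insert_le _ _).trans (Nat.succ_le_succ
    ((Set.ncard_image_le (Set.toFinite _)).trans ?_)))
  rwa [← Nat.card_coe_set_eq]

namespace Base

variable (r : Base N P Q a c b z) (h : Dat N χ)
include r h

theorem bZ : b ∉ zpowers a ⊔ zpowers z := fun k => by
  rw [h.cent_eq r.ex r.aP r.aZ] at k
  exact r.ex.ne (by rw [← r.e7, ← mem_cent1_iff.mp k.1]; group)

theorem gen (ha : a ∈ K) (hb : b ∈ K) : (P : Subgroup G) ≤ K := by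
  have hz : z ∈ K := r.e7 ▸ mul_mem (mul_mem (mul_mem ha hb) (inv_mem ha)) (inv_mem hb)
  have h1 : zpowers a ⊔ zpowers z ≤ P := sup_le (zpowers_le.mpr r.aP) r.ex.zle
  have h2 : zpowers a ⊔ zpowers z ≤ K := sup_le (zpowers_le.mpr ha) (zpowers_le.mpr hz)
  have h3 := card_inf_mul_relIndex (zpowers a ⊔ zpowers z) P
  rw [inf_eq_left.mpr h1, h.card_sup9 r.ex r.aP r.aZ, h.cardP] at h3
  refine inf_eq_left.mp ((eq_or_eq_of_relIndex_prime (le_inf h1 h2) inf_le_left ?_).resolve_left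
    fun k => r.bZ h (k ▸ ⟨r.bP, hb⟩))
  rw [show (zpowers a ⊔ zpowers z).relIndex P = 3 by omega]
  exact Nat.prime_three

theorem uniq (hv : v ∈ N) (v1 : v ≠ 1) (v2 : v * v = 1) (vP : v • P = P) (vQ : v • Q = Q) :
    v = c ^ 4 :=
  have := r.mem (pow_mem (mem_zpowers c) 4)
  h.uniq r.ne hv v1 v2 vP vQ this.1 r.c4 r.sq4 this.2.1 this.2.2

theorem a_ne : a ≠ a⁻¹ := fun k => r.aZ (by
  rw [eq_one_of_sq_cube (mul_eq_one_iff_eq_inv.mpr k) (h.pow3 r.aP)]; exact one_mem _)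

theorem fixa (hg : g ∈ N) (gP : g • P = P) (gQ : g • Q = Q) (hc : g * a = a * g) : g = 1 := by
  by_contra g1
  obtain ⟨v, hv, v1, v2⟩ := exists_invol ((h.pgH r.ne).to_le (inf_le_right (a := C₁[a])))
    (ne_bot_of_mem ⟨mem_cent1_iff.mpr hc, hg, gP, gQ⟩ g1)
  have := r.sa
  rw [← r.uniq h hv.2.1 v1 v2 hv.2.2.1 hv.2.2.2, mem_cent1_iff.mp hv.1, mul_inv_cancel_right]
    at this
  exact r.a_ne h this

theorem conj_s (gP : g • P = P) (gQ : g • Q = Q) : g * c ^ 4 * g⁻¹ = c ^ 4 :=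
  have := r.mem (pow_mem (mem_zpowers c) 4)
  r.uniq h (h.normal.conj_mem _ this.1 g) (by simpa using r.c4) (conj_sq r.sq4 g)
    (by rw [mul_smul, mul_smul, inv_smul_eq_iff.mpr gP.symm, this.2.1, gP])
    (by rw [mul_smul, mul_smul, inv_smul_eq_iff.mpr gQ.symm, this.2.2, gQ])

theorem conj_c (hg : g * c * g⁻¹ ∈ stabilizer G P ⊓ stabilizer G Q) :
    g * c * g⁻¹ = c ∨ g * c * g⁻¹ = c ^ 3 ∨ g * c * g⁻¹ = c ^ 5 ∨ g * c * g⁻¹ = c ^ 7 := by
  obtain ⟨k, h1, h2⟩ := exists_pow_of_mem (show g * c * g⁻¹ ∈ zpowers c by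
    rw [r.zp]; exact ⟨h.normal.conj_mem _ (r.mem (mem_zpowers c)).1 g, hg⟩)
  rw [orderOf_eq_prime_pow (p := 2) (n := 2) r.c4 r.c8] at h1
  have h3 : ∀ j, k ≠ 2 * j := fun j e => r.c4 (by
    have : (g * c * g⁻¹) ^ 4 = 1 := by
      rw [← h2, e, ← pow_mul, show 2 * j * 4 = 8 * j by ring, pow_mul, r.c8, one_pow]
    simpa [conj_pow] using this)
  have := h3 (k / 2)
  rw [← h2]
  obtain rfl | rfl | rfl | rfl : k = 1 ∨ k = 3 ∨ k = 5 ∨ k = 7 := by omega
  all_goals simp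

theorem ncard_inv :
    {y | y ∈ (P : Subgroup G) ∧ c ^ 4 * y * (c ^ 4)⁻¹ = y⁻¹}.ncard ≤ 9 := by
  have h1 := card_zp3 r.ex.ne (h.pow3 r.ex.mem)
  rw [← SetLike.coe_sort_coe, Nat.card_coe_set_eq] at h1
  have h2 : ((zpowers z : Set G) ×ˢ (zpowers z : Set G)).ncard = 9 := by rw [Set.ncard_prod, h1]
  refine h2 ▸ Set.ncard_le_ncard_of_injOn (fun y => (a * y * a⁻¹ * y⁻¹, b * y * b⁻¹ * y⁻¹))
    (fun y hy => ⟨r.ex.comm _ r.aP _ hy.1, r.ex.comm _ r.bP _ hy.1⟩) fun x hx y hy e => ?_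
  have key : ∀ g : G, g * x * g⁻¹ * x⁻¹ = g * y * g⁻¹ * y⁻¹ → g * (y⁻¹ * x) * g⁻¹ = y⁻¹ * x := by
    intro g k
    calc _ = (g * y * g⁻¹)⁻¹ * (g * x * g⁻¹ * x⁻¹) * x := by group
      _ = _ := by rw [k]; group
  have h3 := r.ctr2 h (mul_mem (inv_mem hy.1) hx.1) (key a (Prod.mk.inj e).1)
    (key b (Prod.mk.inj e).2)
  have h4 := h.invol_cent r.ex (r.mem (pow_mem (mem_zpowers c) 4)).1 r.c4 r.sq4
    (r.mem (pow_mem (mem_zpowers c) 4)).2.1 h3
  rw [← conj_mul, ← conj_inv, hx.2, hy.2, inv_inv] at h4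
  by_contra k
  refine r.z_ne h h3 (fun e => k (inv_mul_eq_one.mp e).symm) ?_
  calc _ = y * x⁻¹ := h4.symm
    _ = y * (y⁻¹ * x)⁻¹ * y⁻¹ := by group
    _ = _ := by rw [← r.ex.cz (inv_mem h3) hy.1, mul_inv_cancel_right]

theorem exists_w (e11 : c * b * c⁻¹ = a * b * z) : ∃ w, w • P = P ∧ w • Q = Q ∧ w ∉ N ∧
    w * w = 1 ∧ w * a * w⁻¹ = a ∧ w * c * w⁻¹ = c ^ 3 := by
  have h1 := card_le_cent_mul (stabilizer G P ⊓ stabilizer G Q) a
    (T := {y | y ∈ (P : Subgroup G) ∧ c ^ 4 * y * (c ^ 4)⁻¹ = y⁻¹} \ {1}) fun g hg =>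
      ⟨⟨conj_mem_of_norm (mem_norm_of_smul hg.1) r.aP, by
        rw [conj_inv, ← r.sa, ← r.conj_s h hg.1 hg.2]
        nth_rewrite 3 4 [r.conj_s h hg.1 hg.2]
        group⟩, fun k => r.aZ (by
        have : a = 1 := by simpa using k
        exact this ▸ one_mem _)⟩
  rw [Set.ncard_sdiff_singleton_of_mem (by simp), h.cardH r.ne] at h1
  have h2 := r.ncard_inv h
  obtain ⟨w, hw, w1⟩ := exists_ne_one_of_ne_bot (A := C₁[a] ⊓ (stabilizer G P ⊓ stabilizer G Q))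
    fun k => by rw [k, card_bot] at h1; omega
  have wP : w • P = P := hw.2.1
  have wQ : w • Q = Q := hw.2.2
  have wa := mem_cent1_iff.mp hw.1
  have wa' := mul_inv_eq_iff_eq_mul.mpr wa
  have hww := mul_mem hw hw
  have w2 := r.fixa h (mul_self_mem_of_index_two h.idx w) hww.2.1 hww.2.2
    (mem_cent1_iff.mp hww.1)
  refine ⟨w, wP, wQ, fun k => w1 (r.fixa h k wP wQ wa), w2, wa', ?_⟩
  have hc := r.mem (mem_zpowers c)
  have wz := conj_mem_of_norm (r.ex.norm (mem_norm_of_smul wP)) (mem_zpowers z)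
  have wb : w * b * w⁻¹ = (w * c * w⁻¹) * a * (w * c * w⁻¹)⁻¹ := by
    rw [← r.e6]; nth_rewrite 2 [← wa']; group
  have w11 : (w * c * w⁻¹) * (w * b * w⁻¹) * (w * c * w⁻¹)⁻¹ =
      a * (w * b * w⁻¹) * (w * z * w⁻¹) := by
    calc _ = w * (c * b * c⁻¹) * w⁻¹ := by group
      _ = (w * a * w⁻¹) * (w * b * w⁻¹) * (w * z * w⁻¹) := by rw [e11]; group
      _ = _ := by rw [wa']
  rcases r.conj_c h (mul_mem (mul_mem hw.2 ⟨hc.2.1, hc.2.2⟩) (inv_mem hw.2)) with k | k | k | k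
  · rw [k, r.e6, mul_inv_eq_iff_eq_mul] at wb
    have h3 := r.gen h (K := C₁[w]) (mem_cent1_iff.mpr wa.symm) (mem_cent1_iff.mpr wb.symm)
    refine absurd (h.faithful r.ne fun R => ?_) w1
    by_cases hR : P = R
    · exact hR ▸ wP
    obtain ⟨y, hy, rfl⟩ := h.trans r.ne hR
    rw [← mul_smul, ← mem_cent1_iff.mp (h3 hy), mul_smul, wQ]
  · exact k
  · rw [k] at wb w11
    rw [r.flip.1.e6] at wb
    rw [wb, r.flip.2, e11, mul_assoc, mul_assoc, mul_right_inj] at w11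
    refine absurd (mem_sup_right (r.ex.mem_of_sq (h.pow3 r.bP) r.bP (mem_zpowers z) ?_)) (r.bZ h)
    rw [← r.ex.cz (mem_zpowers z) r.bP, mul_assoc, r.ex.cz (mem_zpowers z) (mul_mem r.bP r.bP),
      mul_assoc, w11, mul_inv_cancel_left]
    exact wz
  · rw [k] at wb w11
    have c7 : c ^ 7 = c⁻¹ := by rw [eq_inv_iff_mul_eq_one, ← pow_succ, r.c8]
    rw [c7, inv_inv] at wb w11
    have h3 : a = c⁻¹ * (c⁻¹ * a * c) * c * (c⁻¹ * a * c) * z := by
      have k2 : c⁻¹ * z⁻¹ * c = z := by rw [← r.e10]; group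
      have k1 : c⁻¹ * z * c = z⁻¹ := (by group : _ = (c⁻¹ * z⁻¹ * c)⁻¹).trans (by rw [k2])
      calc a = c⁻¹ * (c⁻¹ * (c * b * c⁻¹) * c) * c := by rw [← r.e6]; group
        _ = c⁻¹ * (c⁻¹ * a * c) * c * (c⁻¹ * a * c) * (c⁻¹ * (c⁻¹ * z * c) * c) := by
          rw [e11, ← r.e6]; group
        _ = _ := by rw [k1, k2]
    rw [wb] at w11
    rw [w11] at h3
    have h4 := conj_mem_of_norm' r.cn r.aP
    refine absurd (mem_of_conj_mem_of_norm (inv_mem (r.ex.norm r.cn)) ?_) r.aZ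
    rw [inv_inv]
    refine r.ex.mem_of_sq (h.pow3 h4) h4 wz ?_
    rw [mul_assoc, mul_assoc, mul_assoc, left_eq_mul, ← mul_assoc, ← mul_assoc,
      mul_eq_one_iff_eq_inv] at h3
    exact h3 ▸ inv_mem (mem_zpowers z)

variable (e11 : c * b * c⁻¹ = a * b * z) (wP : w • P = P) (wQ : w • Q = Q)
  (wa : w * a * w⁻¹ = a) (wc : w * c * w⁻¹ = c ^ 3)
include e11 wP wQ wa wc

omit wP wQ in
theorem wz : w * z * w⁻¹ = z⁻¹ := by
  have hz := fun {y : G} (hy : y ∈ (P : Subgroup G)) => r.ex.cz (mem_zpowers z) hy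
  have wb : w * b * w⁻¹ = b * a * b := by
    calc _ = (w * c * w⁻¹) * (w * a * w⁻¹) * (w * c * w⁻¹)⁻¹ := by rw [← r.e6]; group
      _ = c * (c * (c * a * c⁻¹) * c⁻¹) * c⁻¹ := by
        rw [wc, wa, pow_succ, pow_two]; group
      _ = c * (a * b * z) * c⁻¹ := by rw [r.e6, e11]
      _ = (c * a * c⁻¹) * (c * b * c⁻¹) * (c * z * c⁻¹) := by group
      _ = _ := by rw [r.e6, e11, r.e10]; group
  have z2 : z * z = z⁻¹ := by rw [← pow_two, sq_eq_inv (h.pow3 r.ex.mem)]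
  calc _ = (w * a * w⁻¹) * (w * b * w⁻¹) * (w * a * w⁻¹)⁻¹ * (w * b * w⁻¹)⁻¹ := by
        rw [← r.e7]; group
    _ = (a * b * a⁻¹) * a * (a * b * a⁻¹) * (b * a * b)⁻¹ := by rw [wa, wb]; group
    _ = z * (b * a * z) * b * (b * a * b)⁻¹ := by rw [r.ab]; group
    _ = _ := by rw [← hz (mul_mem r.bP r.aP), ← z2]; group

theorem fixw (hR : w • R = R) : R = P ∨ R = Q ∨ R = a • Q ∨ R = a⁻¹ • Q := by
  by_cases k : P = R
  · exact Or.inl k.symm
  obtain ⟨y, hy, rfl⟩ := h.trans r.ne k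
  have h1 := h.conj_eq r.ne wP wQ hy hy hR
  have key : ∀ d ∈ zpowers z, w * d * w⁻¹ = d → d = 1 := fun d hd e => by
    by_contra d1
    refine r.z_ne h hd d1 ?_
    rcases mem_zpowers_three (h.pow3 r.ex.mem) hd with k | k | k
    · exact absurd k d1
    · rw [k, r.wz h e11 wa wc] at e
      exact k ▸ e.symm
    · rw [k, ← conj_inv, r.wz h e11 wa wc] at e
      exact k ▸ e.symm
  have h2 := key _ (r.ex.comm _ hy _ r.aP) (by
    rw [← conj_mul, ← conj_mul, ← conj_mul, ← conj_inv, ← conj_inv, h1, wa])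
  rw [mul_inv_eq_one, mul_inv_eq_iff_eq_mul] at h2
  obtain ⟨d, hd, k | k | k⟩ := h.mem_of_comm2 r.ex r.aP r.aZ hy h2
  · rw [k] at h1
    simp [k, key d hd h1]
  · rw [k, ← conj_mul, wa, mul_right_inj] at h1
    simp [k, key d hd h1]
  · rw [k, ← conj_mul, ← conj_inv, wa, mul_right_inj] at h1
    simp [k, key d hd h1]

theorem exists_t : ∃ t ∈ N, t * t = 1 ∧ w * t * w⁻¹ = t ∧ t • P = Q ∧
    t * a⁻¹ * t * a * t = a * c ^ 4 * a⁻¹ ∧ t * c * t⁻¹ ≠ c := by
  have a3 := h.pow3 r.aP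
  have aP := smul_eq_of_mem r.aP
  have aP' := smul_eq_of_mem (inv_mem r.aP)
  have aa : a • a • Q = a⁻¹ • Q := by rw [← mul_smul, ← pow_two, sq_eq_inv a3]
  have hN := h.normal
  have aN := h.le_N P r.aP
  have n1 : a • Q ≠ a⁻¹ • Q := fun k => r.a_ne h (h.inj r.ne r.aP (inv_mem r.aP) k)
  have n2 := h.smul_ne r.ne aP
  have n3 := h.smul_ne r.ne aP'
  obtain ⟨hs, sP, sQ⟩ := r.mem (pow_mem (mem_zpowers c) 4)
  obtain ⟨t, ht, t1, t2, t3, t4, tu⟩ := h.exists_invol n1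
  have w1 : w • a • Q = a • Q := by rw [← mul_smul, mul_inv_eq_iff_eq_mul.mp wa, mul_smul, wQ]
  have w2 : w • a⁻¹ • Q = a⁻¹ • Q := by
    rw [← aa, ← mul_smul, mul_inv_eq_iff_eq_mul.mp wa, mul_smul, w1]
  have wt : w * t * w⁻¹ = t := tu _ (hN.conj_mem t ht w) (by simpa using t1) (conj_sq t2 w)
    (by rw [mul_smul, mul_smul, inv_smul_eq_iff.mpr w1.symm, t3, w1])
    (by rw [mul_smul, mul_smul, inv_smul_eq_iff.mpr w2.symm, t4, w2])
  have u1 : ∀ g ∈ (P : Subgroup G), ∀ v ∈ N, v ≠ 1 → v * v = 1 → v • P = P → v • g • Q = g • Q →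
      v = g * c ^ 4 * g⁻¹ := fun g hg v hv v1 v2 vP vQ =>
    have gP := smul_eq_of_mem hg
    h.uniq (h.smul_ne r.ne gP) hv v1 v2 vP vQ (hN.conj_mem _ hs g) (by simpa using r.c4)
      (conj_sq r.sq4 g) (by rw [mul_smul, mul_smul, inv_smul_eq_iff.mpr gP.symm, sP, gP])
      (by rw [mul_smul, mul_smul, inv_smul_smul, sQ])
  have tP : t • P = Q := by
    rcases r.fixw h e11 wP wQ wa wc (R := t • P) (by
      rw [← mul_smul, mul_inv_eq_iff_eq_mul.mp wt, mul_smul, wP]) with k | k | k | k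
    · have k1 := u1 a r.aP t ht t1 t2 k t3
      rw [u1 a⁻¹ (inv_mem r.aP) t ht t1 t2 k t4] at k1
      refine absurd ?_ (r.a_ne h)
      have k2 : c ^ 4 * a⁻¹ * (c ^ 4)⁻¹ = a⁻¹ := by
        rw [← sq_eq_inv a3, pow_two]
        calc _ = a * (a⁻¹ * c ^ 4 * a⁻¹⁻¹) * a * (c ^ 4)⁻¹ := by group
          _ = _ := by rw [k1]; group
      rw [← conj_inv, r.sa, inv_inv] at k2
      exact k2
    · exact k
    · exact absurd (MulAction.injective t (k.trans t3.symm)) n2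
    · exact absurd (MulAction.injective t (k.trans t4.symm)) n3
  have tQ : t • Q = P := by rw [← tP, ← mul_smul, t2, one_smul]
  refine ⟨t, ht, t2, wt, tP, u1 a r.aP _ ?_ ?_ ?_ ?_ ?_, fun k => ?_⟩
  · exact mul_mem (mul_mem (mul_mem (mul_mem ht (inv_mem aN)) ht) aN) ht
  · intro k
    refine t1 ?_
    calc t = a * t⁻¹ * (t * a⁻¹ * t * a * t) * t⁻¹ * a⁻¹ := by group
      _ = _ := by rw [k, inv_eq_of_mul_eq_one_right t2, mul_one, mul_assoc a, t2]; group
  · simp only [mul_assoc, ← mul_assoc t t, t2, one_mul, mul_inv_cancel_left, inv_mul_cancel_left]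
  · simp only [mul_smul, tP, t3, inv_smul_smul, tQ]
  · simp only [mul_smul, t3, aa, t4]
    rw [← aa, inv_smul_smul, t3]
  · have h1 := h.fix_le n1 ht t1 t2 t3 t4
    have hc := fun i => r.mem (pow_mem (mem_zpowers c) i)
    have h2 := Set.ncard_le_ncard_of_injOn (fun i : ℕ => c ^ i • a • Q)
      (s := (Finset.range 5 : Finset ℕ)) (t := {R : Sylow 3 G | t • R = R}) (fun i _ => by
        have : t * c ^ i = c ^ i * t := (Commute.pow_right (mul_inv_eq_iff_eq_mul.mp k) i).eq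
        rw [Set.mem_ofPred_eq, ← mul_smul, this, mul_smul, t3]) (by
        have key : ∀ i j, i < 5 → j < i → c ^ i • a • Q ≠ c ^ j • a • Q := fun i j hi hj e => by
          obtain ⟨l, rfl⟩ := Nat.exists_eq_add_of_lt hj
          rw [add_assoc, pow_add, mul_smul, smul_left_cancel_iff] at e
          have := r.fixa h (hc _).1 (hc _).2.1 (hc _).2.2 (mul_inv_eq_iff_eq_mul.mp
            (h.conj_eq r.ne (hc _).2.1 (hc _).2.2 r.aP r.aP e))
          have := Nat.le_of_dvd (by omega) (orderOf_dvd_of_pow_eq_one this)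
          rw [orderOf_eq_prime_pow (p := 2) (n := 2) r.c4 r.c8] at this
          omega
        intro i hi j hj e
        simp only [Finset.coe_range, Set.mem_Iio] at hi hj
        rcases lt_trichotomy i j with k | k | k
        · exact absurd e.symm (key j i hj k)
        · exact k
        · exact absurd e (key i j hi k))
    rw [Set.ncard_coe_finset, Finset.card_range] at h2
    omega

end Base

theorem Dat.exists_rel (h : Dat N χ) : ∃ a c w t b z : G, Rel a c w t b z ∧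
    t * c * t = c ^ 5 ∧ closure {a, c, w, t} = ⊤ := by
  obtain ⟨P, Q, hne⟩ := (Finite.one_lt_card_iff_nontrivial.mp
    (by rw [h.card_syl]; norm_num : 1 < Nat.card (Sylow 3 G))).exists_pair_ne
  obtain ⟨a, c, b, z, r, e11⟩ := h.exists_base' hne
  obtain ⟨w, wP, wQ, wN, w2, wa, wc⟩ := r.exists_w h e11
  obtain ⟨t, ht, t2, wt, tP, e14, tc⟩ := r.exists_t h e11 wP wQ wa wc
  have tQ : t • Q = P := by rw [← tP, ← mul_smul, t2, one_smul]
  have wi := inv_eq_of_mul_eq_one_right w2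
  have ti := inv_eq_of_mul_eq_one_right t2
  have rel : Rel a c w t b z := ⟨h.pow3 r.aP, r.c8, w2, by rwa [wi] at wa, by rwa [wi] at wc,
    r.e5, r.e6, r.e7,
    h.pow3 r.ex.mem, (r.ex.cz (mem_zpowers z) r.aP).symm, r.e10, e11, t2,
    mul_inv_eq_iff_eq_mul.mp wt, e14⟩
  have gen : closure {a, c, w, t} = ⊤ := by
    have m1 : a ∈ closure {a, c, w, t} := subset_closure (by simp)
    have m2 : c ∈ closure {a, c, w, t} := subset_closure (by simp)
    have m3 : w ∈ closure {a, c, w, t} := subset_closure (by simp)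
    have m4 : t ∈ closure {a, c, w, t} := subset_closure (by simp)
    generalize closure {a, c, w, t} = K at *
    have h1 := r.gen h m1 (r.e6 ▸ mul_mem (mul_mem m2 m1) (inv_mem m2))
    have h2 : ∀ g : G, g • P = P → g • Q = Q → g ∈ K := fun g gP gQ => by
      have h3 : N ⊓ (stabilizer G P ⊓ stabilizer G Q) ≤ K := r.zp ▸ zpowers_le.mpr m2
      by_cases hg : g ∈ N
      · exact h3 ⟨hg, gP, gQ⟩
      · refine (mul_mem_cancel_left m3).mp (h3 ⟨(mul_mem_iff_of_index_two h.idx).mpr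
          (by simp [hg, wN]), ?_, ?_⟩)
        · show (w * g) • P = P
          rw [mul_smul, gP, wP]
        · show (w * g) • Q = Q
          rw [mul_smul, gQ, wQ]
    have h3 : ∀ g : G, g • P = P → g ∈ K := fun g gP => by
      obtain ⟨y, hy, e⟩ := h.trans hne (h.smul_ne hne gP)
      exact (mul_mem_cancel_left (inv_mem (h1 hy))).mp (h2 _
        (by rw [mul_smul, gP, smul_eq_of_mem (inv_mem hy)]) (by rw [mul_smul, ← e, inv_smul_smul]))
    refine eq_top_iff.mpr fun g _ => ?_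
    by_cases gP : P = g • P
    · exact h3 g gP.symm
    obtain ⟨y, hy, e⟩ := h.trans hne gP
    exact (mul_mem_cancel_left (mul_mem m4 (inv_mem (h1 hy)))).mp (h3 _
      (by rw [mul_smul, mul_smul, ← e, inv_smul_smul, tQ]))
  refine ⟨a, c, w, t, b, z, rel, ?_, gen⟩
  have hc := r.mem (mem_zpowers c)
  rcases r.conj_c h (g := t) ⟨show _ • P = P by rw [mul_smul, mul_smul, ti, tP, hc.2.2, tQ],
    show _ • Q = Q by rw [mul_smul, mul_smul, ti, tQ, hc.2.1, tP]⟩ with k | k | k | k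
  · exact absurd k tc
  · have := (rel.card_3 (by rwa [ti] at k)).2
    rw [gen, card_top, h.card] at this
    omega
  · rwa [ti] at k
  · have := (rel.card_7 (by rwa [ti] at k)).2
    rw [gen, card_top, h.card] at this
    omega

theorem Hyp.nonempty_mulEquiv {M : Type*} [Group M] [Finite M] (hG : Hyp G) (hM : Hyp M) :
    Nonempty (G ≃* M) := by
  obtain ⟨N, χ, h⟩ := hG.exists_dat
  obtain ⟨N', χ', h'⟩ := hM.exists_dat
  obtain ⟨a, c, w, t, b, z, r, k, g⟩ := h.exists_rel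
  obtain ⟨a', c', w', t', b', z', r', k', g'⟩ := h'.exists_rel
  have hp : Rel (a, a') (c, c') (w, w') (t, t') (b, b') (z, z') :=
    ⟨Prod.ext r.e0 r'.e0, Prod.ext r.e1 r'.e1, Prod.ext r.e2 r'.e2, Prod.ext r.e3 r'.e3,
      Prod.ext r.e4 r'.e4, Prod.ext r.e5 r'.e5, Prod.ext r.e6 r'.e6, Prod.ext r.e7 r'.e7,
      Prod.ext r.e8 r'.e8, Prod.ext r.e9 r'.e9, Prod.ext r.e10 r'.e10, Prod.ext r.e11 r'.e11,
      Prod.ext r.e12 r'.e12, Prod.ext r.e13 r'.e13, Prod.ext r.e14 r'.e14⟩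
  obtain ⟨h1, h2⟩ := hp.card_5 (Prod.ext k k')
  have s1 : (closure {(a, a'), (c, c'), (w, w'), (t, t')}).map (MonoidHom.fst G M) = ⊤ := by
    rw [MonoidHom.map_closure, ← g]
    simp only [Set.image_insert_eq, Set.image_singleton, MonoidHom.coe_fst]
  have s2 : (closure {(a, a'), (c, c'), (w, w'), (t, t')}).map (MonoidHom.snd G M) = ⊤ := by
    rw [MonoidHom.map_closure, ← g']
    simp only [Set.image_insert_eq, Set.image_singleton, MonoidHom.coe_snd]
  generalize closure {(a, a'), (c, c'), (w, w'), (t, t')} = D at *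
  let f : D →* G := (MonoidHom.fst G M).comp D.subtype
  let f' : D →* M := (MonoidHom.snd G M).comp D.subtype
  have hf : Function.Surjective f := fun m => by
    obtain ⟨x, hx, rfl⟩ := (s1 ▸ mem_top m : m ∈ D.map (MonoidHom.fst G M))
    exact ⟨⟨x, hx⟩, rfl⟩
  have hf' : Function.Surjective f' := fun m => by
    obtain ⟨x, hx, rfl⟩ := (s2 ▸ mem_top m : m ∈ D.map (MonoidHom.snd G M))
    exact ⟨⟨x, hx⟩, rfl⟩
  have h3 := f'.ker.card_mul_index
  rw [index_ker, MonoidHom.range_eq_top.mpr hf', card_top, hM.card] at h3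
  have h4 := h.nrm (f'.ker.map f) (Normal.map inferInstance f hf) fun k => by
    have := Nat.le_of_dvd Nat.card_pos (k.trans (card_map_dvd _ f))
    omega
  have h5 : Function.Injective f' := (injective_iff_map_eq_one f').mpr fun x hx =>
    Subtype.ext (Prod.ext (mem_bot.mp (h4 ▸ mem_map_of_mem f hx)) hx)
  have h6 := Nat.card_eq_of_bijective f' ⟨h5, hf'⟩
  exact ⟨(MulEquiv.ofBijective f (hf.bijective_of_nat_card_le
    (by rw [h6, hG.card, hM.card]))).symm.trans (MulEquiv.ofBijective f' ⟨h5, hf'⟩)⟩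

end Cfsg.Agent.G22
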