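import Cfsg.Agent.H9.G2StepB

/-! Recognition of `G₂(2)`: the Sylow 3-subgroups. -/

set_option autoImplicit false

namespace Cfsg.Agent.G22

open Subgroup Cfsg.Agent.H7 Cfsg.Agent.Fx4 Cfsg.Agent.H3 Finset
open MulAut (conj)
open scoped Pointwise

universe u
variable {G : Type u} [Group G] [Finite G] {a b c g v w x y z : G} {N K Q : Subgroup G} {χ : G → ℂ}

theorem mem_norm_of_normal (hK : K.Normal) (g : G) : g ∈ N[K] :=
  mem_norm_of_conj fun x hx => hK.conj_mem x hx g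

/-- the data obtained from character theory -/
structure Dat (N : Subgroup G) (χ : G → ℂ) : Prop where
  card : Nat.card G = 12096
  idx : N.index = 2
  nrm : ∀ K : Subgroup G, K.Normal → ¬ 7 ∣ Nat.card K → K = ⊥
  exp3 : ∀ y : G, y ^ 27 = 1 → y ^ 3 = 1
  sev : ∀ y : G, y ≠ 1 → y ^ 3 = 1 → ¬ 7 ∣ Nat.card C₁[y]
  char : IsCharacter N fun n => χ n
  one : χ 1 = 6
  inv : ∀ v ∈ N, v ≠ 1 → v * v = 1 → χ v = -2
  six : ∀ v ∈ N, ∀ y ∈ N, v ≠ 1 → v * v = 1 → y ≠ 1 → y ^ 3 = 1 → v * y = y * v → χ (v * y) = 1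
  three : ∀ y ∈ N, y ≠ 1 → y ^ 3 = 1 → (χ y = 3 ∧ ¬ 4 ∣ Nat.card ↥(C₁[y] ⊓ N)) ∨
    (χ y = 0 ∧ ¬ 2 ∣ Nat.card ↥(C₁[y] ⊓ N)) ∨ (χ y = -3 ∧ ¬ 8 ∣ Nat.card ↥(C₁[y] ⊓ N))

theorem Hyp.exists_dat (h : Hyp G) : ∃ (N : Subgroup G) (χ : G → ℂ), Dat N χ := by
  obtain ⟨x, hx⟩ := exists_prime_orderOf_dvd_card' (G := G) 7 (by rw [h.card]; norm_num)
  obtain ⟨r, r1, r2⟩ := h.exists_r (h.sc7 hx)
  have s : Sev x r := ⟨h.sc7 hx, r1, r2⟩
  obtain ⟨N, h1, h2, h3, h4⟩ := h.exists_index_two s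
  have hN : N.Normal := normal_of_index_eq_two h1
  have hc : Nat.card N = 6048 := by
    have := N.card_mul_index
    rw [h1, h.card] at this
    omega
  have exp3 : ∀ y : G, y ^ 27 = 1 → y ^ 3 = 1 := fun y hy => by
    have := orderOf_dvd_of_pow_eq_one hy
    rcases h.ord y with e | e | e <;>
      exact orderOf_dvd_iff_pow_eq_one.mp ((Nat.dvd_gcd this (orderOf_dvd_of_pow_eq_one e)).trans
        (by norm_num))
  have hx' : orderOf (⟨x, h2⟩ : N) = 7 := by rw [← orderOf_coe]; exact hx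
  have hN' : HypN (⟨x, h2⟩ : N) := by
    refine ⟨⟨hx', fun g hg => ?_⟩, hc, isConj_iff.mpr ⟨⟨r ^ 2, h3⟩, Subtype.ext ?_⟩,
      fun hh => ?_, fun y hy => Subtype.ext (exp3 y (congrArg Subtype.val hy)), fun K hK hxK => ?_⟩
    · obtain ⟨k, hk⟩ := s.cent g (congrArg Subtype.val hg)
      exact ⟨k, Subtype.ext (by simpa using hk)⟩
    · have := conj_pow_pow r1 2
      rw [← pow_mod_orderOf x, hx] at this
      exact this
    · obtain ⟨n, hn⟩ := isConj_iff.mp hh
      have e : (n : G) * x * (n : G)⁻¹ = r ^ 3 * x * (r ^ 3)⁻¹ :=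
        (congrArg Subtype.val hn).trans s.inv.symm
      have := zpowers_le.mpr h2 (s.cent ((n : G)⁻¹ * r ^ 3) (by
        calc _ = (n : G)⁻¹ * (r ^ 3 * x * (r ^ 3)⁻¹) * r ^ 3 := by group
          _ = _ := by rw [← e]; group))
      exact h4 (by simpa using mul_mem n.2 this)
    · have h7 : ¬ 7 ∣ Nat.card (K.map N.subtype) := fun h7 => hxK (by
        rw [card_map_of_injective N.subtype_injective] at h7
        refine mem_of_coprime_orderOf_index ?_
        rw [hx', Nat.Prime.coprime_iff_not_dvd (by norm_num)]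
        intro h8
        have := hc ▸ K.card_mul_index ▸ Nat.mul_dvd_mul h7 h8
        norm_num at this)
      have h5 : N ≤ N[K.map N.subtype] := le_norm_of_conj (by
        rintro n hn _ ⟨k, hk, rfl⟩
        exact ⟨_, hK.conj_mem k hk ⟨n, hn⟩, rfl⟩)
      have h6 : N ≤ N[conj (r ^ 3) • K.map N.subtype] := by
        have := le_norm_smul h5 (r ^ 3)
        rwa [conj_smul_of_norm (mem_norm_of_normal hN _)] at this
      have h8 := s.eq_bot (K := K.map N.subtype ⊔ conj (r ^ 3) • K.map N.subtype) h.card.dvd s.sq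
        s.inv (le_norm_sup h5 h6 h2) (mem_norm_of_conj_smul_eq (by
          rw [conj_smul_sup, conj_smul_smul, s.sq, conj_one_smul, sup_comm])) fun h9 => by
          have := h9.trans (card_sup_dvd (le_trans
            (conj_smul_le_of_norm (mem_norm_of_normal hN _) (map_subtype_le K)) h5))
          rw [← Nat.card_congr (conjEquiv _ _).toEquiv, Nat.Prime.dvd_mul (by norm_num),
            or_self] at this
          exact h7 this
      exact (map_eq_bot_iff_of_injective _ N.subtype_injective).mp (sup_eq_bot_iff.mp h8).1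
  obtain ⟨χ, hχ⟩ := hN'.exists_datN
  have e : ∀ {g : G} (hg : g ∈ N), extendByZero N χ g = χ ⟨g, hg⟩ := extendByZero_of_mem N χ
  refine ⟨N, extendByZero N χ, h.card, h1, fun K hK h7 => s.eq_bot h.card.dvd s.sq s.inv
    (mem_norm_of_normal hK _) (mem_norm_of_normal hK _) h7, exp3,
    fun y y1 y3 h7 => ?_, by simpa only [extendByZero_coe] using hχ.char, e (one_mem N) ▸ hχ.one,
    fun v hv v1 v2 => e hv ▸ hχ.inv _ (by simpa [Subtype.ext_iff] using v1) (Subtype.ext v2),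
    fun v hv y hy v1 v2 y1 y3 hc => ?_, fun y hy y1 y3 => ?_⟩
  · obtain ⟨x', h5, h6⟩ := exists_orderOf_eq_prime (by norm_num) h7
    have := pow_card_eq_one_of_mem ((h.sc7 h6).cent y (mem_cent1_iff.mp h5).symm)
    rw [(h.sc7 h6).card_zp] at this
    exact y1 (pow_eq_one_of_coprime (by norm_num) this y3)
  · have o1 : orderOf v = 2 := orderOf_eq_prime (by rw [pow_two, v2]) v1
    have o2 : orderOf y = 3 := orderOf_eq_prime y3 y1
    have o3 : orderOf (v * y) = 6 := by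
      rw [Commute.orderOf_mul_eq_mul_orderOf_of_coprime hc (by rw [o1, o2]; norm_num), o1, o2]
    rw [e (mul_mem hv hy)]
    refine hχ.six _ (orderOf_dvd_iff_pow_eq_one.mp ?_) ?_ <;> rw [← orderOf_coe] <;>
      simp only [o3] <;> norm_num
  · rw [e hy, ← card_cent1_coe hy]
    exact hχ.three _ (by simpa [Subtype.ext_iff] using y1) (Subtype.ext y3)

theorem exists_core {P C : Subgroup G} (h : P ≤ C) :
    ∃ K ≤ P, C ≤ N[K] ∧ K.relIndex C ∣ (P.relIndex C).factorial := by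
  classical
  refine ⟨(P.subgroupOf C).normalCore.map C.subtype, ?_, le_norm_of_conj ?_, ?_⟩
  · rintro _ ⟨k, hk, rfl⟩
    exact normalCore_le (P.subgroupOf C) hk
  · rintro c hc _ ⟨k, hk, rfl⟩
    exact ⟨_, (normalCore_normal _).conj_mem k hk ⟨c, hc⟩, rfl⟩
  · have := Fintype.ofFinite (C ⧸ P.subgroupOf C)
    rw [relIndex, subgroupOf, comap_map_eq_self_of_injective C.subtype_injective,
      normalCore_eq_ker, index_ker, relIndex, index, Nat.card_eq_fintype_card (α := _ ⧸ _),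
      ← Fintype.card_perm, ← Nat.card_eq_fintype_card]
    exact card_subgroup_dvd_card _

theorem isChar_avg (hχ : IsCharacter K fun k => χ k) {n : ℕ} (hy : orderOf y = n) (hK : y ∈ K)
    (hN : ∀ g ∈ K, g * y * g⁻¹ ∈ zpowers y) :
    IsCharacter K fun k => (fun g => (n : ℂ)⁻¹ * ∑ i ∈ range n, χ (y ^ i * g)) k := by
  obtain ⟨ψ, h1, h2⟩ := exists_avg' hχ hy hK hN
  have h0 : (n : ℂ) ≠ 0 := by rw [← hy]; exact_mod_cast (orderOf_pos y).ne'
  convert h1 using 2 with k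
  simp only [← h2, inv_mul_cancel_left₀ h0]

theorem sum_const_off [Fintype Q] {f : G → ℂ} {c : ℂ} (h : ∀ y ∈ Q, y ≠ 1 → f y = c) :
    ∑ y : Q, f y = f 1 + (Nat.card Q - 1) * c := by
  classical
  rw [← add_sum_erase _ _ (mem_univ (1 : Q)), sum_congr rfl fun (y : Q) hy => h y y.2
    (fun e => (mem_erase.mp hy).1 (Subtype.ext e)), sum_const, card_erase_of_mem (mem_univ _), card_univ,
    ← Nat.card_eq_fintype_card, nsmul_eq_mul, Nat.cast_pred Nat.card_pos, OneMemClass.coe_one]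

theorem sq_eq_inv (h : y ^ 3 = 1) : y ^ 2 = y⁻¹ := by
  rw [eq_inv_iff_mul_eq_one, ← pow_succ, h]

theorem card_zp3 (h1 : y ≠ 1) (h : y ^ 3 = 1) : Nat.card (zpowers y) = 3 := by
  rw [Nat.card_zpowers, orderOf_eq_prime h h1]

theorem dvd_ncard_of_orbits {Ω : Type*} [Finite Ω] (φ : G →* Equiv.Perm Ω) (E : Subgroup G)
    (S : Set Ω) (hS : ∀ e ∈ E, ∀ s ∈ S, φ e s ∈ S) {m : ℕ}
    (h : ∀ s ∈ S, m ∣ ((MulAction.stabilizer (Equiv.Perm Ω) s).comap φ).relIndex E) :
    m ∣ S.ncard := by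
  classical
  let _ : MulAction E S :=
    { smul := fun e s => ⟨φ e s, hS e e.2 s s.2⟩
      one_smul := fun s => Subtype.ext (by
        change φ (1 : E) s = s
        simp)
      mul_smul := fun a b s => Subtype.ext (by
        change φ (a * b : E) s = φ a (φ b s)
        simp) }
  have := Fintype.ofFinite (MulAction.orbitRel.Quotient E S)
  rw [← Nat.card_coe_set_eq, Nat.card_congr (MulAction.selfEquivSigmaOrbits E S), Nat.card_sigma]
  refine dvd_sum fun ω _ => ?_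
  rw [Nat.card_coe_set_eq, ← MulAction.index_stabilizer]
  have e : MulAction.stabilizer E ω.out =
      ((MulAction.stabilizer (Equiv.Perm Ω) (ω.out : Ω)).comap φ).subgroupOf E :=
    Subgroup.ext fun e => Subtype.ext_iff
  rw [e]
  exact h ω.out ω.out.2

theorem ex27 {R : Type*} [Group R] [Finite R] (h : Nat.card R = 27) (hna : ¬ IsMulCommutative R) :
    Nat.card (center R) = 3 ∧ ∀ a b : R, a * b * a⁻¹ * b⁻¹ ∈ center R := by
  have hP : IsPGroup 3 R := IsPGroup.of_card (n := 3) h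
  have : Nontrivial R := Finite.one_lt_card_iff_nontrivial.mp (by omega)
  have h1 := Finite.one_lt_card_iff_nontrivial.mpr hP.center_nontrivial
  have h2 := (center R).card_mul_index
  have h3 : ¬ (center R).index ∣ 3 := fun h3 => hna (by
    have := isCyclic_of_card_dvd_prime (α := R ⧸ center R) h3
    exact isMulCommutative_of_isCyclic_quotient_center_self R)
  obtain ⟨j, hj, e⟩ := (Nat.dvd_prime_pow Nat.prime_three (m := 3)).mp
    (h ▸ (center R).card_subgroup_dvd_card)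
  rw [e, h] at h2
  have h4 : j = 1 := by
    rw [e] at h1
    interval_cases j
    · simp at h1
    · rfl
    · exact absurd (by omega : (center R).index = 3).dvd h3
    · exact absurd ((by omega : (center R).index = 1) ▸ one_dvd 3) h3
  subst h4
  refine ⟨e, fun a b => ?_⟩
  have := IsPGroup.isMulCommutative_of_card_eq_prime_sq (p := 3) (G := R ⧸ center R)
    (by change (center R).index = _; omega)
  rw [← QuotientGroup.eq_one_iff]
  simp [this.is_comm.comm (a : R ⧸ center R) b]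

/-- an extraspecial subgroup with centre generated by `z` -/
structure Ex (P : Subgroup G) (z : G) : Prop where
  mem : z ∈ P
  ne : z ≠ 1
  cent : P ≤ C₁[z]
  comm : ∀ a ∈ P, ∀ b ∈ P, a * b * a⁻¹ * b⁻¹ ∈ zpowers z
  ctr : ∀ g ∈ P, P ≤ C₁[g] → g ∈ zpowers z
  na : ∃ y ∈ P, y ∉ zpowers z

theorem exists_ex (h : Nat.card Q = 27) (hna : ¬ Q ≤ C[Q]) : ∃ z, Ex Q z := by
  obtain ⟨h1, h2⟩ := ex27 h fun hc => hna (le_cent_iff.mpr fun b hb a ha =>
    congrArg Subtype.val (hc.is_comm.comm (⟨a, ha⟩ : Q) ⟨b, hb⟩))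
  obtain ⟨z, hz, z1⟩ := exists_ne_one_of_ne_bot (ne_bot_of_card_prime (h1 ▸ Nat.prime_three))
  have h3 := zpowers_eq_of_card_prime (h1 ▸ Nat.prime_three) hz z1
  have h4 : ∀ g ∈ center Q, (g : G) ∈ zpowers (z : G) := fun g hg => by
    obtain ⟨k, rfl⟩ := h3 ▸ hg
    exact ⟨k, by simp⟩
  have h5 : Q ≤ C₁[(z : G)] :=
    fun g hg => mem_cent1_iff.mpr (congrArg Subtype.val (mem_center_iff.mp hz ⟨g, hg⟩))
  refine ⟨z, z.2, by simpa using z1, h5, fun a ha b hb => h4 _ (h2 ⟨a, ha⟩ ⟨b, hb⟩),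
    fun g hg hc => h4 ⟨g, hg⟩ (mem_center_iff.mpr fun b =>
      Subtype.ext (mem_cent1_iff.mp (hc b.2))), ?_⟩
  by_contra! hh
  exact hna (le_cent_symm (h5.trans (by rw [← cent_zpowers]; exact cent_anti hh)))

theorem eq_of_le_norm {P P' : Sylow 3 G} (h : (P' : Subgroup G) ≤ N[(P : Subgroup G)]) :
    P' = P := by
  have h1 : (P' : Subgroup G) ⊓ N[(P : Subgroup G)] = _ := P'.isPGroup'.inf_normalizer_sylow P
  rw [inf_eq_left.mpr h, eq_comm, inf_eq_left] at h1
  exact Sylow.ext (P'.is_maximal' P.isPGroup' h1).symm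

theorem comm_of_comm {P P' : Sylow 3 G} (h : (P : Subgroup G) ≤ C[(P : Subgroup G)]) :
    (P' : Subgroup G) ≤ C[(P' : Subgroup G)] := by
  obtain ⟨g, rfl⟩ := MulAction.exists_smul_eq G P P'
  exact le_cent_smul h g

theorem exists_le_card_pow {p n : ℕ} [Fact p.Prime] (h : p ^ n ∣ Nat.card K) :
    ∃ E ≤ K, Nat.card E = p ^ n := by
  obtain ⟨E, hE⟩ := Sylow.exists_subgroup_card_pow_prime (G := K) p h
  exact ⟨E.map K.subtype, map_subtype_le E, by rwa [card_map_of_injective K.subtype_injective]⟩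

namespace Dat

variable (h : Dat N χ) {P P' : Sylow 3 G}
include h

theorem normal : N.Normal := normal_of_index_eq_two h.idx

theorem cardN : Nat.card N = 6048 := by
  have := N.card_mul_index
  rw [h.idx, h.card] at this
  omega

theorem mem3 (hy : y ^ 3 = 1) : y ∈ N := by
  have := h.normal
  exact mem_of_coprime_orderOf_index (h.idx ▸ Nat.Coprime.coprime_dvd_left
    (orderOf_dvd_of_pow_eq_one hy) (by norm_num))

theorem res (hK : K ≤ N) : IsCharacter K fun k => χ k := isCharacter_comp (inclusion hK) h.char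

theorem cls (hg : g ∈ N) (hy : y ∈ N) : χ (g * y * g⁻¹) = χ y :=
  char_isClassFunction h.char ⟨y, hy⟩ ⟨g, hg⟩

theorem val3 (h1 : y ≠ 1) (hy : y ^ 3 = 1) : χ y = 3 ∨ χ y = 0 ∨ χ y = -3 := by
  rcases h.three y (h.mem3 hy) h1 hy with e | e | e <;> simp [e.1]

theorem real (hy : y ^ 3 = 1) : χ y⁻¹ = χ y := by
  have := char_inv h.char ⟨y, h.mem3 hy⟩
  simp only [InvMemClass.coe_inv] at this
  rw [this]
  by_cases h1 : y = 1
  · rw [h1, h.one, map_ofNat]
  · rcases h.val3 h1 hy with e | e | e <;> simp [e, map_ofNat]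

theorem plane (hv : v ∈ N) (v1 : v ≠ 1) (v2 : v * v = 1) (hQ : ∀ y ∈ Q, y ^ 3 = 1)
    (hc : Q ≤ C₁[v]) : Nat.card Q ∣ 3 := by
  classical
  have := Fintype.ofFinite Q
  have hQN : Q ≤ C₁[v] ⊓ N := le_inf hc fun y hy => h.mem3 (hQ y hy)
  obtain ⟨m, hm⟩ := exists_sum_sub (h.res inf_le_right) hQN
  obtain ⟨n, hn⟩ := exists_sum_sub
    (χ := fun g => ((2 : ℕ) : ℂ)⁻¹ * ∑ i ∈ range 2, χ (v ^ i * g)) (isChar_avg (h.res inf_le_right)
    (orderOf_eq_prime (p := 2) (by rw [pow_two, v2]) v1) ⟨mem_cent1_self v, hv⟩ fun g hg => by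
      rw [mem_cent1_iff.mp hg.1, mul_inv_cancel_right]; exact mem_zpowers v) hQN
  simp only [sum_range_succ, range_zero, sum_empty, pow_zero, pow_one, one_mul, zero_add,
    ← mul_sum, sum_add_distrib, hm] at hn
  rw [sum_const_off (f := fun y => χ (v * y)) fun y hy y1 => h.six v hv y (hQN hy).2 v1 v2 y1
    (hQ y hy) (mem_cent1_iff.mp (hc hy)).symm, mul_one v, h.inv v hv v1 v2] at hn
  have : ((3 : ℤ) : ℂ) = (Nat.card Q * (m + 1 - 2 * n) : ℤ) := by
    push_cast at hn ⊢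
    linear_combination (-2) * hn
  exact Int.natCast_dvd_natCast.mp ⟨_, by exact_mod_cast this⟩

theorem cardP (P : Sylow 3 G) : Nat.card P = 27 := by
  rw [P.card_eq_multiplicity, h.card, show 12096 = 3 ^ 3 * 448 from rfl,
    Nat.factorization_eq_of_coprime_left
    (show Nat.Coprime (3 ^ 3) 448 by norm_num) (by simp), Nat.prime_three.factorization_pow]
  simp

theorem pow3 (hy : y ∈ (P : Subgroup G)) : y ^ 3 = 1 :=
  h.exp3 y (h.cardP P ▸ pow_card_eq_one_of_mem hy)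

theorem le_N (P : Sylow 3 G) : (P : Subgroup G) ≤ N := fun _ hy => h.mem3 (h.pow3 hy)

theorem not_eight (h1 : y ≠ 1) (hy : y ^ 3 = 1) : ¬ 8 ∣ Nat.card ↥(C₁[y] ⊓ N) := fun h8 => by
  rcases h.three y (h.mem3 hy) h1 hy with e | e | e <;>
    exact e.2 (Dvd.dvd.trans (by norm_num) h8)

theorem cent_le_norm (hy : y ∈ (P : Subgroup G)) (h1 : y ≠ 1) (hc : (P : Subgroup G) ≤ C₁[y]) :
    C₁[y] ⊓ N ≤ N[(P : Subgroup G)] := by
  have y3 := h.pow3 hy
  have hP : (P : Subgroup G) ≤ C₁[y] ⊓ N := le_inf hc (h.le_N P)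
  have h2 := card_dvd_of_le hP
  have h3 := Nat.mem_divisors.mpr ⟨h.cardN ▸ card_dvd_of_le (inf_le_right : C₁[y] ⊓ N ≤ N),
    by norm_num⟩
  have key : ∀ n ∈ Nat.divisors 6048, 27 ∣ n → ¬ 7 ∣ n → ¬ 8 ∣ n → n ≤ 2 * 27 ∨ n = 108 := by
    decide +kernel
  rcases key _ h3 (h.cardP P ▸ h2) (fun h7 => h.sev y h1 y3 (h7.trans
    (card_dvd_of_le inf_le_left))) (h.not_eight h1 y3) with hC | hC
  · exact le_norm_of_card hP (by rwa [h.cardP])
  obtain ⟨K, k1, k2, k3⟩ := exists_core hP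
  have k4 := card_inf_mul_relIndex (P : Subgroup G) (C₁[y] ⊓ N)
  have k5 := card_inf_mul_relIndex K (C₁[y] ⊓ N)
  rw [inf_eq_left.mpr hP, h.cardP, hC] at k4
  rw [inf_eq_left.mpr (k1.trans hP), hC] at k5
  rw [show (P : Subgroup G).relIndex (C₁[y] ⊓ N) = 4 by omega] at k3
  have l1 : K ⊔ zpowers y ≤ P := sup_le k1 (zpowers_le.mpr hy)
  have l2 : C₁[y] ⊓ N ≤ N[K ⊔ zpowers y] := le_norm_sup k2 (le_norm_zpowers inf_le_left)
  have l3 : zpowers y ≤ K ⊔ zpowers y := le_sup_right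
  have k7 : Nat.card ↥(K ⊔ zpowers y) = 9 ∨ Nat.card ↥(K ⊔ zpowers y) = 27 := by
    have := Nat.le_of_dvd (by decide) k3
    have k8 := card_le_of_le' (le_sup_left : K ≤ K ⊔ zpowers y)
    have k9 : 4 < Nat.card K := by
      by_contra k9
      have := Nat.mul_le_mul (not_lt.mp k9) this
      simp [k5, Nat.factorial] at this
    obtain ⟨j, hj, e⟩ := (Nat.dvd_prime_pow Nat.prime_three (m := 3)).mp
      (h.cardP P ▸ card_dvd_of_le l1)
    rw [e] at k8 ⊢
    interval_cases j <;> omega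
  generalize K ⊔ zpowers y = L at l1 l2 l3 k7
  rcases k7 with k7 | k7
  swap
  · rwa [← eq_of_le_of_card_eq l1 (by rw [k7, h.cardP])]
  obtain ⟨k, hk, hky⟩ : ∃ k ∈ L, k ∉ zpowers y := by
    by_contra! hh
    have := card_le_of_le' (show L ≤ zpowers y from hh)
    rw [k7, card_zp3 h1 y3] at this
    omega
  have l4 : zpowers y ⊔ zpowers k = L := by
    refine (eq_or_eq_of_relIndex_prime le_sup_left (sup_le l3 (zpowers_le.mpr hk)) ?_).resolve_left
      fun e => hky (e ▸ mem_sup_right (mem_zpowers k))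
    have := card_inf_mul_relIndex (zpowers y) L
    rw [inf_eq_left.mpr l3, card_zp3 h1 y3, k7] at this
    rw [show (zpowers y).relIndex L = 3 by omega]
    exact Nat.prime_three
  have l5 := card_le_cent_mul (C₁[y] ⊓ N) k (T := (L : Set G) \ zpowers y) fun w hw =>
    ⟨conj_mem_of_norm (l2 hw) hk, fun e => hky
      (mem_of_conj_mem_of_norm (le_norm_zpowers inf_le_left hw) e)⟩
  rw [Set.ncard_sdiff l3, ← Nat.card_coe_set_eq, ← Nat.card_coe_set_eq, SetLike.coe_sort_coe,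
    SetLike.coe_sort_coe, k7, card_zp3 h1 y3, hC] at l5
  have l6 : C₁[k] ⊓ (C₁[y] ⊓ N) = (C₁[y] ⊓ N) ⊓ C[L] := by
    rw [← l4, cent_sup, cent_zpowers, cent_zpowers]
    ext g
    simp only [Subgroup.mem_inf]
    exact ⟨fun h => ⟨h.2, h.2.1, h.1⟩, fun h => ⟨h.2.2, h.1⟩⟩
  rw [l6] at l5
  by_cases l7 : 2 ∣ Nat.card ↥((C₁[y] ⊓ N) ⊓ C[L])
  · obtain ⟨v, hv, ho⟩ := exists_orderOf_eq_prime Nat.prime_two l7
    have := h.plane hv.1.2 (ne_one_of_orderOf_prime (ho ▸ Nat.prime_two))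
      (by rw [← pow_two, ← ho, pow_orderOf_eq_one]) (fun y hy => h.pow3 (l1 hy))
      (le_cent1_iff.mpr hv.2)
    norm_num [k7] at this
  have l8 := le_norm_inf_cent (le_norm_self (C₁[y] ⊓ N)) l2
  have l9 : (C₁[y] ⊓ N) ⊓ C[L] ≤ C₁[y] ⊓ N := inf_le_left
  generalize (C₁[y] ⊓ N) ⊓ C[L] = D at l5 l7 l8 l9
  have key2 : ∀ n ∈ Nat.divisors 108, ¬ 2 ∣ n → 108 ≤ n * (9 - 3) → n = 27 := by decide +kernel
  have m1 := key2 _ (Nat.mem_divisors.mpr ⟨hC ▸ card_dvd_of_le l9, by norm_num⟩) l7 l5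
  have m2 := card_sup_dvd (hP.trans l8)
  rw [m1, h.cardP] at m2
  have m3 := Nat.le_of_dvd (by norm_num) (Nat.dvd_gcd m2 (hC ▸ card_dvd_of_le (sup_le l9 hP)))
  have m4 : (P : Subgroup G) = D ⊔ P := eq_of_le_of_card_ge le_sup_right (by
    rw [h.cardP]; simpa using m3)
  rwa [← eq_of_le_of_card_eq (m4 ▸ le_sup_left : D ≤ P) (by rw [m1, h.cardP])]

theorem val_ex (e : Ex (P : Subgroup G) z) :
    χ z = -3 ∧ ∀ y ∈ (P : Subgroup G), y ∉ zpowers z → χ y = 0 := by
  have z3 := h.pow3 e.mem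
  have h1 := isChar_avg (h.res (h.le_N P)) (orderOf_eq_prime z3 e.ne) e.mem fun g hg => by
    rw [mem_cent1_iff.mp (e.cent hg), mul_inv_cancel_right]; exact mem_zpowers z
  have h2 : ∀ y ∈ (P : Subgroup G), y ∉ zpowers z →
      ((3 : ℕ) : ℂ)⁻¹ * ∑ i ∈ range 3, χ (z ^ i * y) = χ y := fun y hy hz => by
    obtain ⟨b, hb, hby⟩ : ∃ b ∈ (P : Subgroup G), b ∉ C₁[y] := by
      by_contra! hh
      exact hz (e.ctr y hy hh)
    have k1 : ∀ b ∈ (P : Subgroup G), χ (b * y * b⁻¹ * y⁻¹ * y) = χ y := fun b hb => by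
      rw [inv_mul_cancel_right, h.cls (h.le_N P hb) (h.le_N P hy)]
    have k2 := k1 b hb
    have k3 := k1 b⁻¹ (inv_mem hb)
    have k4 : b⁻¹ * y * b⁻¹⁻¹ * y⁻¹ = (b * y * b⁻¹ * y⁻¹)⁻¹ := by
      have := mem_cent1_iff.mp (zpowers_le.mpr (mem_cent1_comm.mp (e.cent hb)) (e.comm b hb y hy))
      calc _ = b⁻¹ * ((b * y * b⁻¹ * y⁻¹)⁻¹ * b) := by group
        _ = _ := by rw [(Commute.inv_left this).eq, inv_mul_cancel_left]
    rw [k4] at k3
    simp only [sum_range_succ, range_zero, sum_empty, pow_zero, pow_one, one_mul, sq_eq_inv z3]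
    rcases mem_zpowers_three z3 (e.comm b hb y hy) with k | k | k
    · exact absurd (mem_cent1_iff.mpr (by
        rwa [mul_inv_eq_one, mul_inv_eq_iff_eq_mul] at k)) hby
    · rw [k] at k2 k3; rw [k2, k3]; push_cast; ring
    · rw [k] at k2 k3; rw [inv_inv] at k3; rw [k2, k3]; push_cast; ring
  obtain ⟨y, hy, hz⟩ := e.na
  have y1 : y ≠ 1 := fun k => hz (k ▸ one_mem _)
  have y3 := h.pow3 hy
  obtain ⟨m, hm⟩ := exists_sum_pow h1 (y := ⟨y, hy⟩) (n := 3)
    (by rw [← orderOf_coe]; exact orderOf_eq_prime y3 y1)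
  rw [sum_range_succ, sum_range_succ, sum_range_one] at hm
  simp only [SubgroupClass.coe_pow, pow_zero, pow_one, sq_eq_inv y3, h2 y hy hz,
    h2 y⁻¹ (inv_mem hy) (by simpa using hz), h.real y3] at hm
  simp only [sum_range_succ, range_zero, sum_empty, pow_zero, pow_one, mul_one, sq_eq_inv z3,
    h.real z3, h.one, OneMemClass.coe_one] at hm
  have h3 : χ z = -3 := by
    have key : ∀ a b : ℤ, χ z = 3 * a → χ y = 3 * b → 2 + 2 * a + 6 * b = 3 * m := by
      intro a b ha hb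
      rw [ha, hb] at hm
      rw [← Int.cast_inj (α := ℂ)]
      push_cast at hm ⊢
      linear_combination hm
    obtain ⟨b, hb⟩ : ∃ b : ℤ, χ y = 3 * b := by
      rcases h.val3 y1 y3 with k | k | k
      exacts [⟨1, by simp [k]⟩, ⟨0, by simp [k]⟩, ⟨-1, by simp [k]⟩]
    rcases h.val3 e.ne z3 with k | k | k
    · have := key 1 b (by simp [k]) hb; omega
    · have := key 0 b (by simp [k]) hb; omega
    · exact k
  refine ⟨h3, fun y hy hz => ?_⟩
  have h4 := congrFun (char_eq_zero_of_one h1 (by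
    simp only [sum_range_succ, range_zero, sum_empty, pow_zero, pow_one, mul_one, sq_eq_inv z3,
      h.real z3, h.one, OneMemClass.coe_one, h3]
    norm_num)) ⟨y, hy⟩
  rw [← h2 y hy hz]
  exact h4

theorem val_ctr (e : Ex (P : Subgroup G) z) (hy : y ∈ zpowers z) (h1 : y ≠ 1) : χ y = -3 := by
  rcases mem_zpowers_three (h.pow3 e.mem) hy with k | k | k
  · exact absurd k h1
  · rw [k, (h.val_ex e).1]
  · rw [k, h.real (h.pow3 e.mem), (h.val_ex e).1]

theorem odd_cent (e : Ex (P : Subgroup G) z) (hy : y ∈ (P : Subgroup G)) (hz : y ∉ zpowers z) :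
    ¬ 2 ∣ Nat.card ↥(C₁[y] ⊓ N) := by
  have := (h.val_ex e).2 y hy hz
  rcases h.three y (h.le_N P hy) (fun k => hz (k ▸ one_mem _)) (h.pow3 hy) with k | k | k
  · norm_num [this] at k
  · exact k.2
  · norm_num [this] at k

theorem not_comm_of_ex (e : Ex (P : Subgroup G) z) : ¬ (P : Subgroup G) ≤ C[(P : Subgroup G)] := by
  obtain ⟨y, hy, hz⟩ := e.na
  exact fun hc => hz (e.ctr y hy (hc.trans (cent_le_cent1 hy)))

theorem card_sup9 (e : Ex (P : Subgroup G) z) (hy : y ∈ (P : Subgroup G)) (hz : y ∉ zpowers z) :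
    Nat.card ↥(zpowers y ⊔ zpowers z) = 9 := by
  have y1 : y ≠ 1 := fun k => hz (k ▸ one_mem _)
  have h1 := card_zp3 y1 (h.pow3 hy)
  have h2 := card_zp3 e.ne (h.pow3 e.mem)
  rw [card_sup_of_inf_eq_bot (le_norm_zpowers (zpowers_le.mpr (mem_cent1_comm.mp (e.cent hy))))
    ((inf_eq_bot_or_le_of_card_prime _ (h1 ▸ Nat.prime_three)).resolve_right
      fun k => hz (k (mem_zpowers y))), h1, h2]

theorem cent_eq (e : Ex (P : Subgroup G) z) (hy : y ∈ (P : Subgroup G)) (hz : y ∉ zpowers z) :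
    zpowers y ⊔ zpowers z = C₁[y] ⊓ N := by
  have y1 : y ≠ 1 := fun k => hz (k ▸ one_mem _)
  have y3 := h.pow3 hy
  refine eq_of_le_of_card_ge (sup_le (zpowers_le.mpr ⟨mem_cent1_self y, h.le_N P hy⟩)
    (zpowers_le.mpr ⟨mem_cent1_comm.mp (e.cent hy), h.le_N P e.mem⟩)) ?_
  have h3 := Nat.mem_divisors.mpr ⟨h.cardN ▸ card_dvd_of_le (inf_le_right : C₁[y] ⊓ N ≤ N),
    by norm_num⟩
  have key : ∀ n ∈ Nat.divisors 6048, ¬ 2 ∣ n → ¬ 7 ∣ n → n ≤ 9 ∨ n = 27 := by decide +kernel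
  rw [h.card_sup9 e hy hz]
  refine (key _ h3 (h.odd_cent e hy hz) fun h7 => h.sev y y1 y3 (h7.trans
    (card_dvd_of_le inf_le_left))).resolve_right fun h27 => ?_
  obtain ⟨R, hR⟩ := (IsPGroup.of_card (p := 3) (n := 3) h27).exists_le_sylow
  have h4 := eq_of_le_of_card_eq hR (by rw [h27, h.cardP])
  obtain ⟨z', e'⟩ := exists_ex (h.cardP R) fun k => h.not_comm_of_ex e (comm_of_comm k)
  have := h.val_ctr e' (e'.ctr y (hR ⟨mem_cent1_self y, h.le_N P hy⟩) (h4 ▸ inf_le_left)) y1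
  norm_num [(h.val_ex e).2 y hy hz] at this

theorem ti (hy : y ∈ (P : Subgroup G)) (hy' : y ∈ (P' : Subgroup G)) (h1 : y ≠ 1) : P = P' := by
  have key : ∀ u ∈ (P : Subgroup G), u ∈ (P' : Subgroup G) → u ≠ 1 →
      (P : Subgroup G) ≤ C₁[u] → (P' : Subgroup G) ≤ C₁[u] → P = P' := fun u hu hu' u1 k1 k2 =>
    eq_of_le_norm ((le_inf k1 (h.le_N P)).trans (h.cent_le_norm hu' u1 k2))
  by_cases hc : (P : Subgroup G) ≤ C[(P : Subgroup G)]
  · exact key y hy hy' h1 (hc.trans (cent_le_cent1 hy))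
      ((comm_of_comm hc).trans (cent_le_cent1 hy'))
  obtain ⟨z, e⟩ := exists_ex (h.cardP P) hc
  obtain ⟨z', e'⟩ := exists_ex (h.cardP P') fun k => hc (comm_of_comm k)
  have key2 : ∀ u ∈ (P : Subgroup G), u ≠ 1 → u ∈ zpowers z' → P = P' := fun u hu u1 k => by
    have k1 : u ∈ zpowers z := by
      by_contra k1
      have := h.val_ctr e' k u1
      norm_num [(h.val_ex e).2 u hu k1] at this
    exact key u hu (zpowers_le.mpr e'.mem k) u1
      (le_cent1_iff.mpr (zpowers_le.mpr (le_cent1_iff.mp e.cent) k1))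
      (le_cent1_iff.mpr (zpowers_le.mpr (le_cent1_iff.mp e'.cent) k))
  by_cases hz' : y ∈ zpowers z'
  · exact key2 y hy h1 hz'
  have hz : y ∉ zpowers z := fun k => by
    have := h.val_ctr e k h1
    norm_num [(h.val_ex e').2 y hy' hz'] at this
  have h2 : z' ∈ zpowers y ⊔ zpowers z := by
    rw [h.cent_eq e hy hz, ← h.cent_eq e' hy' hz']
    exact mem_sup_right (mem_zpowers z')
  exact key2 z' (sup_le (zpowers_le.mpr hy) (zpowers_le.mpr e.mem) h2) e'.ne (mem_zpowers z')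

theorem eq_one_of_smul (hy : y ∈ (P : Subgroup G)) (hne : P ≠ P') (hs : y • P' = P') : y = 1 := by
  by_contra h1
  have h2 := (P.isPGroup'.to_le (zpowers_le.mpr hy)).inf_normalizer_sylow P'
  have h3 : y ∈ zpowers y ⊓ (P' : Subgroup G) :=
    h2 ▸ ⟨mem_zpowers y, Sylow.smul_eq_iff_mem_normalizer.mp hs⟩
  exact hne (h.ti hy h3.2 h1)

theorem card_syl : Nat.card (Sylow 3 G) = 28 := by
  obtain ⟨P⟩ : Nonempty (Sylow 3 G) := inferInstance
  have h1 := dvd_ncard_of_orbits (MulAction.toPermHom G (Sylow 3 G)) P {P}ᶜ (m := 27)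
    (fun e he s hs k => hs (by
      have : e • P = P := Sylow.smul_eq_iff_mem_normalizer.mpr (le_normalizer he)
      exact MulAction.injective e (k.trans this.symm))) fun s hs => by
      rw [relIndex_of_inf_eq_bot (inf_eq_bot_of_forall fun x hx hx' =>
        h.eq_one_of_smul hx' (Ne.symm hs) hx), h.cardP]
  rw [Set.ncard_compl, Set.ncard_singleton] at h1
  have h2 := P.card_dvd_index
  have h3 := (P : Subgroup G).card_mul_index
  rw [h.cardP, h.card] at h3
  rw [show (P : Subgroup G).index = 448 by omega] at h2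
  have key : ∀ n ∈ Nat.divisors 448, 27 ∣ n - 1 → n = 1 ∨ n = 28 := by decide +kernel
  refine (key _ (Nat.mem_divisors.mpr ⟨h2, by norm_num⟩) h1).resolve_left fun k => ?_
  rw [P.card_eq_index_normalizer, index_eq_one] at k
  replace k : (P : Subgroup G).Normal := normalizer_eq_top_iff.mp k
  have := h.cardP P
  rw [h.nrm P k (by rw [this]; norm_num), card_bot] at this
  omega

theorem card_norm (P : Sylow 3 G) : Nat.card N[(P : Subgroup G)] = 432 := by
  have h1 := N[(P : Subgroup G)].card_mul_index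
  have h2 := h.card_syl
  rw [P.card_eq_index_normalizer] at h2
  change N[(P : Subgroup G)].index = 28 at h2
  rw [h2, h.card] at h1
  omega

theorem card_le_two_mul (K : Subgroup G) :
    Nat.card K = Nat.card ↥(N ⊓ K) ∨ Nat.card K = 2 * Nat.card ↥(N ⊓ K) := by
  have := h.normal
  have h1 := card_inf_mul_relIndex N K
  rcases (Nat.dvd_prime Nat.prime_two).mp (h.idx ▸ relIndex_dvd_index_of_normal N K) with e | e <;>
    rw [e] at h1 <;> omega

theorem not_comm (P : Sylow 3 G) : ¬ (P : Subgroup G) ≤ C[(P : Subgroup G)] := by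
  classical
  intro hc
  obtain ⟨E, hE, E8⟩ := exists_le_card_pow (p := 2) (n := 3) (K := N ⊓ N[(P : Subgroup G)]) (by
    have := h.card_le_two_mul N[(P : Subgroup G)]
    rw [h.card_norm] at this
    omega)
  obtain ⟨c, hc1, c1, c4⟩ : ∃ c ∈ (P : Subgroup G), c ≠ 1 ∧ 4 ∣ Nat.card ↥(C₁[c] ⊓ N) := by
    by_contra! hh
    have h1 := dvd_ncard_of_orbits ((MulAut.toPerm G).comp conj) E
      (((P : Subgroup G) : Set G) \ {1}) (m := 4)
      (fun e he s hs => ⟨conj_mem_of_norm (hE he).2 hs.1, fun k => hs.2 (by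
        have k' : e * s * e⁻¹ = 1 := k
        simpa using k')⟩)
      fun s hs => by
        have h2 := card_inf_mul_relIndex ((MulAction.stabilizer (Equiv.Perm G) s).comap
          ((MulAut.toPerm G).comp conj)) E
        have h3 : ¬ 4 ∣ _ := fun k => hh s hs.1 hs.2 (k.trans (card_dvd_of_le
          (show (MulAction.stabilizer (Equiv.Perm G) s).comap
            ((MulAut.toPerm G).comp conj) ⊓ E ≤ C₁[s] ⊓ N from fun g hg =>
            ⟨mem_cent1_iff.mpr (mul_inv_eq_iff_eq_mul.mp hg.1), (hE hg.2).1⟩)))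
        rw [E8] at h2
        obtain ⟨j, hj, e⟩ := (Nat.dvd_prime_pow Nat.prime_two).mp (Dvd.intro _ h2)
        rw [e] at h2 h3
        interval_cases j <;> omega
    rw [Set.ncard_sdiff_singleton_of_mem (one_mem _), ← Nat.card_coe_set_eq, SetLike.coe_sort_coe,
      h.cardP] at h1
    norm_num at h1
  have c3 := h.pow3 hc1
  have h1 : χ c = -3 := by
    rcases h.three c (h.mem3 c3) c1 c3 with k | k | k
    · exact absurd c4 k.2
    · exact absurd (Dvd.dvd.trans (by norm_num) c4) k.2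
    · exact k.1
  obtain ⟨v, hv, ho⟩ := exists_orderOf_eq_prime Nat.prime_two (Dvd.dvd.trans (by norm_num) c4)
  have v1 := ne_one_of_orderOf_prime (ho ▸ Nat.prime_two)
  have v2 : v * v = 1 := by rw [← pow_two, ← ho, pow_orderOf_eq_one]
  have hvP := h.cent_le_norm hc1 c1 (hc.trans (cent_le_cent1 hc1)) hv
  have h2 := char_eq_zero_of_one (isChar_avg (h.res (h.le_N P)) (orderOf_eq_prime c3 c1) hc1
    fun g hg => by rw [comm_of_mem_cent (hc hc1) hg, mul_inv_cancel_right]; exact mem_zpowers c) (by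
    simp only [sum_range_succ, range_zero, sum_empty, pow_zero, pow_one, mul_one, sq_eq_inv c3,
      h.real c3, h.one, OneMemClass.coe_one, h1]
    norm_num)
  let W : Subgroup G :=
    { carrier := {g | g ∈ (P : Subgroup G) ∧ v * g * v⁻¹ = g⁻¹}
      one_mem' := ⟨one_mem _, by simp⟩
      mul_mem' := fun {a b} ha hb => ⟨mul_mem ha.1 hb.1, by
        rw [comm_of_mem_cent (hc hb.1) ha.1, mul_inv_rev, ← ha.2, ← hb.2,
          ← comm_of_mem_cent (hc hb.1) ha.1]
        group⟩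
      inv_mem' := fun {a} ha => ⟨inv_mem ha.1, by rw [← conj_inv, ha.2]⟩ }
  have h3 := card_le_of_fun (P : Subgroup G) C₁[v] (fun g => g * (v * g * v⁻¹)⁻¹) (T := W)
    (Set.toFinite _) (fun g hg => ⟨mul_mem hg (inv_mem (conj_mem_of_norm hvP hg)), by
      simp only [inv_eq_of_mul_eq_one_right v2, mul_inv_rev, inv_inv, mul_assoc, v2, mul_one,
        ← mul_assoc v v, one_mul]⟩) fun g hg k hk e => by
      rw [mem_cent1_iff, eq_comm, ← mul_inv_eq_iff_eq_mul]
      calc _ = g⁻¹ * (g * (v * g * v⁻¹)⁻¹) * (v * k * v⁻¹) := by group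
        _ = _ := by rw [e]; group
  have h4 := Nat.le_of_dvd (by norm_num) (h.plane (Q := C₁[v] ⊓ P) hv.2 v1 v2
    (fun y hy => h.pow3 hy.2) inf_le_left)
  have := Fintype.ofFinite W
  obtain ⟨m, hm⟩ := exists_sum_sub (h.res (h.le_N P)) (H := W) fun g hg => hg.1
  rw [sum_const_off (f := χ) (c := 0) fun g hg g1 => by
    have k1 := congrFun h2 ⟨g, hg.1⟩
    have k2 : χ (c⁻¹ * g) = χ (c * g) := by
      rw [← h.real (h.pow3 (mul_mem hc1 hg.1)), ← h.cls hv.2
        (h.le_N P (mul_mem (inv_mem hc1) hg.1)), mul_inv_rev, ← conj_mul, hg.2, ← conj_inv,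
        mem_cent1_iff.mp hv.1, mul_inv_cancel_right,
        comm_of_mem_cent (hc (inv_mem hc1)) (inv_mem hg.1)]
    simp only [sum_range_succ, range_zero, sum_empty, pow_zero, pow_one, one_mul, sq_eq_inv c3,
      k2, Pi.zero_apply, mul_eq_zero] at k1
    replace k1 := k1.resolve_left (by norm_num)
    have k3 : c * g ≠ 1 := fun k => g1 (eq_one_of_sq_cube (by
      have := hg.2
      rw [eq_inv_of_mul_eq_one_right k, ← conj_inv, mem_cent1_iff.mp hv.1, mul_inv_cancel_right,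
        inv_inv, inv_eq_iff_mul_eq_one] at this
      rw [eq_inv_of_mul_eq_one_right k, ← mul_inv_rev, this, inv_one]) (h.pow3 hg.1))
    rcases h.val3 k3 (h.pow3 (mul_mem hc1 hg.1)) with a | a | a <;>
      rcases h.val3 g1 (h.pow3 hg.1) with b | b | b <;> rw [a, b] at k1 <;>
      first | exact b | norm_num at k1, h.one, mul_zero, add_zero] at hm
  have h5 := Nat.le_of_dvd (by norm_num) (⟨m, by exact_mod_cast hm⟩ : Nat.card W ∣ 6)
  rw [h.cardP, ← Nat.card_coe_set_eq, SetLike.coe_sort_coe] at h3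
  have := Nat.mul_le_mul h4 h5
  omega

end Dat

end Cfsg.Agent.G22
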