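import Cfsg.Agent.H9.G2Util
import Cfsg.Agent.H9.FxWrap
import Cfsg.Agent.H3.Frobenius
import Cfsg.Agent.H3.GroupUtil

/-! Groups with the order and the element orders of `G₂(2)`: the prime seven. -/

set_option autoImplicit false

namespace Cfsg.Agent.G22

open Subgroup Cfsg.Agent.H7 Cfsg.Agent.Fx4
open MulAut (conj)
open scoped Pointwise

universe u
variable {G : Type u} [Group G] {g r t x y : G} {K : Subgroup G}

instance fact7 : Fact (Nat.Prime 7) := ⟨by norm_num⟩

/-- order and element orders of `G₂(2)` -/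
structure Hyp (G : Type u) [Group G] : Prop where
  card : Nat.card G = 12096
  ord : ∀ g : G, g ^ 7 = 1 ∨ g ^ 8 = 1 ∨ g ^ 12 = 1

/-- a self-centralizing element of order seven -/
structure SC7 (x : G) : Prop where
  ord : orderOf x = 7
  cent : ∀ g : G, g * x = x * g → g ∈ zpowers x

theorem conj_pow_pow {k : ℕ} (h : r * x * r⁻¹ = x ^ k) (i : ℕ) :
    r ^ i * x * (r ^ i)⁻¹ = x ^ k ^ i := by
  induction i with
  | zero => simp
  | succ i ih => rw [pow_succ', ← conj_conj, ih, ← conj_pow, h, ← pow_mul, pow_succ']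

variable [Finite G]

theorem exists_pow_of_mem (h : g ∈ zpowers x) : ∃ i < orderOf x, x ^ i = g := by
  classical
  simpa using mem_zpowers_iff_mem_range_orderOf.mp h

namespace SC7

theorem pow7 (h : SC7 x) : x ^ 7 = 1 := h.ord ▸ pow_orderOf_eq_one x

theorem ne_one (h : SC7 x) : x ≠ 1 := fun e => by simpa [e] using h.ord

theorem card_zp (h : SC7 x) : Nat.card (zpowers x) = 7 := by rw [Nat.card_zpowers, h.ord]

theorem cent_eq (h : SC7 x) : C₁[x] = zpowers x :=
  le_antisymm (fun g hg => h.cent g (mem_cent1_iff.mp hg)) (zpowers_le.mpr (mem_cent1_self x))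

theorem card_cent (h : SC7 x) : Nat.card C₁[x] = 7 := by rw [h.cent_eq, h.card_zp]

theorem cent' (h : SC7 x) (hy : y ∈ zpowers x) (h1 : y ≠ 1) (hg : g * y = y * g) :
    g ∈ zpowers x := by
  have := cent1_eq_cent_of_card_prime (by rw [h.card_zp]; norm_num) hy h1
  rw [cent_zpowers, h.cent_eq] at this
  exact this ▸ mem_cent1_iff.mpr hg

theorem mem_of_dvd (h : SC7 x) (hy : y ∈ zpowers x) (h1 : y ≠ 1) (hK : y ∈ K) : x ∈ K := by
  have := zpowers_eq_of_card_prime (by rw [h.card_zp]; norm_num) hy h1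
  exact (this ▸ zpowers_le.mpr hK : zpowers x ≤ K) (mem_zpowers x)

theorem dvd_of_mem (h : SC7 x) (hK : x ∈ K) : 7 ∣ Nat.card K := h.ord ▸ orderOf_dvd_card_of_mem hK

theorem fpf (h : SC7 x) (hx : x ∈ N[K]) (h7 : ¬ 7 ∣ Nat.card K) : 7 ∣ Nat.card K - 1 := by
  rw [← h.card_zp]
  refine H3.card_dvd_card_sub_one_of_fpf
    (fun a ha k hk => conj_mem_of_norm (zpowers_le.mpr hx ha) hk) fun a ha k hk e => ?_
  by_contra hc
  rw [not_or] at hc
  exact h7 (h.dvd_of_mem (h.mem_of_dvd (h.cent' ha hc.1 e.symm) hc.2 hk))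

theorem not_three (h : SC7 x) (hG : Nat.card G ∣ 12096) (hx : x ∈ N[K])
    (h7 : ¬ 7 ∣ Nat.card K) : ¬ 3 ∣ Nat.card K := by
  intro h3
  obtain ⟨Q, hQ⟩ := H3.exists_sylow_normalized (A := zpowers x) (K := K) (p := 7)
    (IsPGroup.of_card (n := 1) (by simp [h.card_zp])) (zpowers_le.mpr hx) h7 3
  have h1 := h.fpf (hQ (mem_zpowers x)) fun h' =>
    h7 (h'.trans (card_dvd_of_le (map_subtype_le _)))
  rw [card_map_of_injective K.subtype_injective] at h1
  obtain ⟨k, hk⟩ := Q.isPGroup'.exists_card_eq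
  have h2 : 3 ^ k ∣ 12096 := hk ▸ ((Q : Subgroup K).card_subgroup_dvd_card.trans
    K.card_subgroup_dvd_card).trans hG
  have h4 := Q.dvd_card_of_dvd_card h3
  rw [hk] at h1 h4
  have h5 : k < 4 := by
    by_contra h5
    exact absurd ((pow_dvd_pow 3 (not_lt.mp h5)).trans h2) (by norm_num)
  interval_cases k <;> simp at h1 h4

theorem isPGroup (h : SC7 x) (hG : Nat.card G ∣ 12096) (hx : x ∈ N[K])
    (h7 : ¬ 7 ∣ Nat.card K) : Nat.card K = 1 ∨ Nat.card K = 8 ∨ Nat.card K = 64 := by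
  have h3 := h.not_three hG hx h7
  have h1 := h.fpf hx h7
  have h2 := Nat.mem_divisors.mpr ⟨K.card_subgroup_dvd_card.trans hG, by norm_num⟩
  have key : ∀ n ∈ Nat.divisors 12096, ¬ 7 ∣ n → ¬ 3 ∣ n → 7 ∣ n - 1 →
      n = 1 ∨ n = 8 ∨ n = 64 := by decide +kernel
  exact key _ h2 h7 h3 h1

theorem eq_bot (h : SC7 x) (hG : Nat.card G ∣ 12096) (ht : t * t = 1)
    (htx : t * x * t⁻¹ = x⁻¹) (hx : x ∈ N[K]) (htK : t ∈ N[K]) (h7 : ¬ 7 ∣ Nat.card K) :
    K = ⊥ := by
  have hxx : x⁻¹ * x⁻¹ ≠ 1 := fun e => by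
    have : orderOf x ∣ 2 := orderOf_dvd_of_pow_eq_one (by
      rw [← mul_inv_rev, inv_eq_one] at e; rw [pow_two, e])
    simp [h.ord] at this
  have hxx' : x⁻¹ * x⁻¹ ∈ zpowers x := mul_mem (inv_mem (mem_zpowers x)) (inv_mem (mem_zpowers x))
  have hn : t ∉ K := fun ht' => by
    have : x⁻¹ * x⁻¹ ∈ K := by
      have := mul_mem ht' (conj_mem_of_norm hx (inv_mem ht'))
      rwa [← mul_assoc, ← mul_assoc, htx] at this
    exact h7 (h.dvd_of_mem (h.mem_of_dvd hxx' hxx this))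
  by_contra hK
  rcases h.isPGroup hG hx h7 with hc | hc | hc
  · exact hK (eq_bot_iff_card'.mpr hc)
  · have hP : IsPGroup 2 K := IsPGroup.of_card (n := 3) hc
    let V : Subgroup G :=
      { carrier := {k | k ∈ K ∧ k ∈ C[K] ∧ k * k = 1}
        one_mem' := ⟨one_mem _, one_mem _, mul_one _⟩
        mul_mem' := fun {a b} ha hb => ⟨mul_mem ha.1 hb.1, mul_mem ha.2.1 hb.2.1, by
          rw [mul_assoc, ← mul_assoc b, comm_of_mem_cent ha.2.1 hb.1, mul_assoc, hb.2.2, mul_one,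
            ha.2.2]⟩
        inv_mem' := fun {a} ha => ⟨inv_mem ha.1, inv_mem ha.2.1, by
          rw [← mul_inv_rev, ha.2.2, inv_one]⟩ }
    have hVK : V ≤ K := fun _ hk => hk.1
    have hVn : ∀ g ∈ N[K], g ∈ N[V] := fun g hg => mem_norm_of_conj fun k hk =>
      ⟨conj_mem_of_norm hg hk.1, conj_mem_of_norm (norm_le_norm_cent K hg) hk.2.1,
        conj_sq hk.2.2 g⟩
    have hVc : V ≤ C[V] := fun k hk => cent_anti hVK hk.2.1
    obtain ⟨z, hz, z1, z2, z3⟩ := exists_central' hP le_rfl (le_norm_self K) hK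
    have hV7 : ¬ 7 ∣ Nat.card V := fun h' => h7 (h'.trans (card_dvd_of_le hVK))
    have hV8 : Nat.card V = 8 := by
      have h1 := one_lt_card_of_ne_bot (ne_bot_of_mem (A := V) ⟨hz, z3, z2⟩ z1)
      have h2 := card_le_of_le' hVK
      have h3 := h.isPGroup hG (hVn x hx) hV7
      omega
    have key : ∀ s ∈ N[V], s * s = 1 → 3 ≤ Nat.card ↥(C₁[s] ⊓ V) := by
      intro s hs s2
      have h1 := card_le_of_fun V C₁[s] (fun v => v * (s * v * s⁻¹))
        (T := (C₁[s] ⊓ V : Subgroup G)) (Set.toFinite _) (fun v hv =>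
          ⟨mem_cent1_iff.mpr (by
            conv_lhs => rw [comm_of_mem_cent (hVc (conj_mem_of_norm hs hv)) hv]
            simp only [inv_eq_of_mul_eq_one_right s2, mul_assoc, s2, mul_one]),
            mul_mem hv (conj_mem_of_norm hs hv)⟩) (fun v hv w hw e => by
          have e1 := inv_eq_of_mul_eq_one_right (conj_mem_of_norm hs hv).2.2
          have e2 := inv_eq_of_mul_eq_one_right (conj_mem_of_norm hs hw).2.2
          rw [mem_cent1_iff, eq_comm, ← mul_inv_eq_iff_eq_mul]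
          calc _ = (s * v * s⁻¹)⁻¹ * (s * w * s⁻¹)⁻¹⁻¹ := by group
            _ = v⁻¹ * (v * (s * v * s⁻¹)) * (s * w * s⁻¹)⁻¹ := by rw [e1, e2, e2]; group
            _ = v⁻¹ * w * ((s * w * s⁻¹) * (s * w * s⁻¹)⁻¹) := by rw [e]; group
            _ = _ := by group)
      rw [← Nat.card_coe_set_eq, hV8] at h1
      by_contra h2
      have : Nat.card ↥(C₁[s] ⊓ V) * Nat.card ↥(C₁[s] ⊓ V) ≤ 2 * 2 :=
        Nat.mul_le_mul (by omega) (by omega)
      exact absurd (h1.trans this) (by norm_num)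
    have h1 := key t (hVn t htK) ht
    have h2 := key (x * t * x⁻¹) (mul_mem (mul_mem (hVn x hx) (hVn t htK)) (inv_mem (hVn x hx)))
      (conj_sq ht x)
    have h3 := card_sup_of_inf_eq_bot (A := C₁[t] ⊓ V) (B := C₁[x * t * x⁻¹] ⊓ V)
      (le_norm_of_le_cent (le_cent_mono hVc inf_le_right inf_le_right))
      (inf_eq_bot_of_forall fun v hv hv' => by
        by_contra v1
        have h4 := mul_mem (mem_cent1_comm.mp hv.1) (inv_mem (mem_cent1_comm.mp hv'.1))
        have e : t * (x * t * x⁻¹)⁻¹ = x⁻¹ * x⁻¹ := by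
          rw [show t * (x * t * x⁻¹)⁻¹ = t * x * t⁻¹ * x⁻¹ by group, htx]
        rw [e] at h4
        exact hV7 (h.dvd_of_mem (h.mem_of_dvd (h.cent' hxx' hxx (mem_cent1_iff.mp h4).symm) v1
          hv.2)))
    have h4 : Nat.card ↥((C₁[t] ⊓ V) ⊔ (C₁[x * t * x⁻¹] ⊓ V)) ≤ Nat.card V :=
      card_le_of_le' (sup_le inf_le_right inf_le_right)
    nlinarith
  · have h1 := card_sup_zpowers htK hn (ht ▸ one_mem _)
    have h2 := (K ⊔ zpowers t).card_subgroup_dvd_card.trans hG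
    rw [h1, hc] at h2
    norm_num at h2

end SC7

theorem Hyp.sc7 (h : Hyp G) (hx : orderOf x = 7) : SC7 x := by
  have h7 : x ^ 7 = 1 := hx ▸ pow_orderOf_eq_one x
  have h1 : ∀ g ∈ C₁[x], g ^ 7 = 1 := fun g hg => by
    have hc : Commute g x := mem_cent1_iff.mp hg
    have key : ∀ g : G, g ^ 7 = 1 ∨ g ^ 24 = 1 := fun g => by
      rcases h.ord g with e | e | e
      · exact Or.inl e
      · exact Or.inr (by rw [show 24 = 8 * 3 from rfl, pow_mul, e, one_pow])
      · exact Or.inr (by rw [show 24 = 12 * 2 from rfl, pow_mul, e, one_pow])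
    rcases key g with e | e
    · exact e
    rcases key (g * x) with e' | e'
    · rwa [hc.mul_pow, h7, mul_one] at e'
    · rw [hc.mul_pow, e, one_mul] at e'
      simpa [hx] using orderOf_dvd_of_pow_eq_one e'
  have hP : IsPGroup 7 C₁[x] := fun g => ⟨1, Subtype.ext (by simpa using h1 g g.2)⟩
  obtain ⟨k, hk⟩ := hP.exists_card_eq
  have h2 : 7 ^ k ∣ 12096 := hk ▸ h.card ▸ card_subgroup_dvd_card _
  have h5 : k < 2 := by
    by_contra h5
    exact absurd ((pow_dvd_pow 7 (not_lt.mp h5)).trans h2) (by norm_num)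
  have h3 : zpowers x = C₁[x] := eq_of_le_of_card_ge (zpowers_le.mpr (mem_cent1_self x)) (by
    rw [hk, Nat.card_zpowers, hx]
    interval_cases k <;> norm_num)
  exact ⟨hx, fun g hg => h3 ▸ mem_cent1_iff.mpr hg⟩

/-- the Sylow subgroup generated by `x` -/
noncomputable def SC7.syl (h : SC7 x) (hG : Nat.card G ∣ 12096) : Sylow 7 G :=
  IsPGroup.toSylow (P := zpowers x) (IsPGroup.of_card (n := 1) (by simp [h.card_zp])) fun h' => by
    have := (zpowers x).card_mul_index ▸ hG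
    rw [h.card_zp] at this
    exact absurd ((Nat.mul_dvd_mul_left 7 h').trans this) (by norm_num)

theorem Hyp.exists_r (h : Hyp G) (hx : SC7 x) : ∃ r : G, r * x * r⁻¹ = x ^ 3 ∧ r ^ 6 = 1 := by
  classical
  have key : ∀ I : Finset ℕ, (∀ w ∈ N[zpowers x], ∃ i ∈ I, x ^ i = w * x * w⁻¹) →
      Nat.card N[zpowers x] ≤ 7 * I.card := by
    intro I hI
    refine (card_le_cent_mul N[zpowers x] x (T := (I.image (x ^ ·) : Finset G))
      fun w hw => by simpa using hI w hw).trans (Nat.mul_le_mul ?_ ?_)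
    · exact hx.card_cent ▸ card_le_of_le' inf_le_left
    · rw [Set.ncard_coe_finset]; exact Finset.card_image_le
  have h0 : ∀ w ∈ N[zpowers x], ∃ i < 7, i ≠ 0 ∧ x ^ i = w * x * w⁻¹ := fun w hw => by
    obtain ⟨i, h1, h2⟩ := exists_pow_of_mem (conj_mem_of_norm hw (mem_zpowers x))
    refine ⟨i, hx.ord ▸ h1, ?_, h2⟩
    rintro rfl
    exact hx.ne_one (by simpa using h2.symm)
  have h1 : ∃ r : G, r * x * r⁻¹ = x ^ 3 := by
    by_contra hc
    have h2 := key {1, 2, 4, 5, 6} fun w hw => by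
      obtain ⟨i, h3, h4, h5⟩ := h0 w hw
      have : i ≠ 3 := fun e => hc ⟨w, by rw [← h5, e]⟩
      exact ⟨i, by simp; omega, h5⟩
    have h3 := card_sylow_modEq_one 7 G
    rw [(hx.syl h.card.dvd).card_eq_index_normalizer] at h3
    have h4 := N[zpowers x].card_mul_index
    obtain ⟨m, hm⟩ := hx.dvd_of_mem (le_norm_self _ (mem_zpowers x))
    change N[zpowers x].index ≡ 1 [MOD 7] at h3
    rw [h.card, hm] at h4
    rw [hm] at h2
    have h5 : m ≤ 5 := by simp at h2; omega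
    unfold Nat.ModEq at h3
    interval_cases m <;> omega
  obtain ⟨r, hr⟩ := h1
  refine ⟨r, hr, ?_⟩
  have h2 := conj_pow_pow hr 6
  rw [← pow_mod_orderOf x, hx.ord] at h2
  obtain ⟨i, h3, h4⟩ := exists_pow_of_mem
    (hx.cent (r ^ 6) (by simpa [mul_inv_eq_iff_eq_mul] using h2))
  have h5 : r * x ^ i * r⁻¹ = x ^ i := by rw [h4]; group
  rw [← conj_pow, hr, ← pow_mul, pow_inj_mod, hx.ord] at h5
  rw [hx.ord] at h3
  rw [← h4, show i = 0 by omega, pow_zero]

end Cfsg.Agent.G22
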