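import Cfsg.Agent.H9.G2Seven

/-! Groups with the order and the element orders of `G₂(2)` have a subgroup of index two. -/

set_option autoImplicit false

namespace Cfsg.Agent.G22

open Subgroup Cfsg.Agent.H7 Cfsg.Agent.Fx4 Cfsg.Agent.H3 Cfsg.Agent.L0.SC3 Finset
open scoped ComplexConjugate

universe u
variable {G : Type u} [Group G] [Finite G] {g r t x y : G}

/-- the possible contributions of a character -/
def tabA : List (ℕ × ℤ × ℤ × ℤ) :=
  [(4, 4, -4, 6912), (4, 4, 4, 6912),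
    (4, 18, -6, 3456), (4, 18, 2, 384), (4, 32, -8, 3456), (4, 32, 0, 0),
    (4, 32, 8, 3456), (4, 144, -24, 6912), (4, 144, -16, 3072), (4, 144, -8, 768), (4, 144, 0, 0),
    (4, 144, 8, 768), (4, 144, 16, 3072), (4, 144, 24, 6912), (4, -24, 0, 0),
    (4, -108, 12, -2304), (4, -108, 4, -256), (4, -108, -4, -256), (4, -108, -12, -2304),
    (4, -192, 24, -5184), (4, -192, 16, -2304), (4, -192, 8, -576), (4, -192, 0, 0),
    (4, -192, -8, -576), (4, -192, -16, -2304), (4, -192, -24, -5184),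
    (1, 1, 1, 1728), (1, 8, 0, 0), (1, 36, -4, 768), (1, 36, 0, 0), (1, 36, 4, 768), (1, 64, 0, 0),
    (1, -27, -3, -576), (1, -48, 4, -576), (1, -48, 0, 0), (1, -48, -4, -576)]

theorem mem_tabA : ∀ e ∈ ([1, -1, 2, -2] : List ℤ), ∀ d ∈ List.range 110, d ∣ 12096 →
    (7 : ℤ) ∣ d + 6 * e → ∀ a ∈ (List.range 41).map (fun i : ℕ => (i : ℤ) - 20),
    7 * |a| ≤ d + 6 * e → (4 : ℤ) ∣ d - a → (d = 27 → 3 ∣ a) → (d = 64 → a = 0) →
    ((e * e).toNat, e * d, e * a, e * a * a * (1728 / d : ℕ)) ∈ tabA ∧ d ∣ 1728 := by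
  decide +kernel

/-- the final test -/
def okA (v : ℤ × ℤ × ℤ) : Bool :=
  v.1 == 0 && v.2.1 == 0 && (List.range 2016).any fun k => 36 * ((k : ℤ) + 1) ^ 2 == v.2.2

theorem srchA : srch okA tabA 6 (1, 1, 1728) = false := by decide +kernel

/-- the normalizer of `x` -/
structure Sev (x r : G) : Prop extends SC7 x where
  cj : r * x * r⁻¹ = x ^ 3
  six : r ^ 6 = 1

namespace Sev

variable (h : Sev x r)
include h

theorem sq : r ^ 3 * r ^ 3 = 1 := by rw [← pow_add, h.six]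

theorem inv : r ^ 3 * x * (r ^ 3)⁻¹ = x⁻¹ := by
  rw [conj_pow_pow h.cj, ← pow_mod_orderOf, h.ord, eq_inv_iff_mul_eq_one, ← pow_succ]
  exact h.pow7

theorem isConj_pow {i : ℕ} (h0 : i ≠ 0) (h7 : i < 7) : IsConj x (x ^ i) := by
  have key : ∀ j, IsConj x (x ^ (3 ^ j % 7)) := fun j => by
    rw [← h.ord, pow_mod_orderOf, ← conj_pow_pow h.cj]
    exact isConj_iff.mpr ⟨_, rfl⟩
  interval_cases i
  · exact absurd rfl h0
  exacts [key 0, key 2, key 1, key 4, key 5, key 3]

theorem inv' (hy : y ∈ zpowers x) : r ^ 3 * y * (r ^ 3)⁻¹ = y⁻¹ := by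
  obtain ⟨k, rfl⟩ := hy
  simp only [← conj_zpow, h.inv, inv_zpow]

theorem isConj_mul (hy : y ∈ zpowers x) : IsConj (r ^ 3) (y * r ^ 3) := by
  have h1 := h.inv' (inv_mem (pow_mem hy 4))
  have h2 : y ^ 7 = 1 := h.card_zp ▸ pow_card_eq_one_of_mem hy
  refine isConj_iff.mpr ⟨y ^ 4, ?_⟩
  calc _ = y ^ 4 * (r ^ 3 * (y ^ 4)⁻¹ * (r ^ 3)⁻¹) * r ^ 3 := by group
    _ = y * y ^ 7 * r ^ 3 := by rw [h1]; group
    _ = _ := by rw [h2, mul_one]

theorem not_comm {k : ℕ} (h0 : k ≠ 0) (h6 : k < 6) : r ^ k ≠ 1 := fun e => by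
  have := conj_pow_pow h.cj k
  rw [e, one_mul, inv_one, mul_one] at this
  nth_rewrite 1 [← pow_one x] at this
  rw [pow_inj_mod, h.ord] at this
  interval_cases k <;> simp at this h0

theorem six_dvd : 6 ∣ Nat.card C₁[r ^ 3] := by
  have : orderOf r = 6 := (orderOf_eq_iff (by norm_num)).mpr
    ⟨h.six, fun m h1 h2 => h.not_comm h2.ne' h1⟩
  rw [← this]
  exact orderOf_dvd_card_of_mem (mem_cent1_iff.mpr (by group))

theorem ncard_pairs : {a | IsConj (r ^ 3) a ∧ IsConj (r ^ 3) (a⁻¹ * x⁻¹)}.ncard = 7 := by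
  have key : ∀ a, IsConj (r ^ 3) a → a⁻¹ = a := fun a ha => by
    obtain ⟨c, rfl⟩ := isConj_iff.mp ha
    exact inv_eq_of_mul_eq_one_right (Fx4.conj_sq h.sq c)
  have : {a | IsConj (r ^ 3) a ∧ IsConj (r ^ 3) (a⁻¹ * x⁻¹)} =
      (fun y => y * r ^ 3) '' (zpowers x : Set G) := by
    ext a
    constructor
    · rintro ⟨h1, h2⟩
      refine ⟨a * (r ^ 3)⁻¹, h.cent _ ?_, by simp⟩
      have e1 := key _ h2
      rw [mul_inv_rev, inv_inv, inv_inv, key _ h1] at e1
      have e2 : (r ^ 3)⁻¹ * x = x⁻¹ * (r ^ 3)⁻¹ := by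
        rw [inv_eq_of_mul_eq_one_right h.sq, ← h.inv]; group
      rw [mul_assoc, e2, ← mul_assoc, ← e1, mul_assoc]
    · rintro ⟨y, hy, rfl⟩
      refine ⟨h.isConj_mul hy, ?_⟩
      have e : (y * r ^ 3)⁻¹ * x⁻¹ = y * x * r ^ 3 := by
        rw [key _ (h.isConj_mul hy), ← h.inv, ← mul_assoc, ← mul_assoc, mul_assoc y, h.sq, mul_one,
          inv_eq_of_mul_eq_one_right h.sq]
      exact e ▸ h.isConj_mul (mul_mem hy (mem_zpowers x))
  rw [this, Set.ncard_image_of_injective _ (mul_left_injective _), ← Nat.card_coe_set_eq]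
  exact h.card_zp

theorem vals {χ : G → ℂ} (hχ : IsCharacter G χ) {d : ℕ} (hd : χ 1 = d) :
    ∃ e a : ℤ, χ x = e ∧ χ (r ^ 3) = a ∧ (7 : ℤ) ∣ d + 6 * e ∧ 7 * |a| ≤ d + 6 * e := by
  classical
  have := Fintype.ofFinite G
  have hr : r ∈ N[zpowers x] := mem_norm_of_conj (by
    rintro _ ⟨k, rfl⟩
    simp only [← conj_zpow, h.cj]
    exact zpow_mem (pow_mem (mem_zpowers x) 3) k)
  obtain ⟨ψ, h1, h2⟩ := exists_avg' (isCharacter_res N[zpowers x] hχ) h.ord
    (le_norm_self _ (mem_zpowers x)) fun g hg => conj_mem_of_norm hg (mem_zpowers x)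
  obtain ⟨m, hm⟩ := char_one_nat h1
  obtain ⟨a, ha⟩ := exists_int_invol hχ h.sq
  have hc := char_isClassFunction hχ
  have h3 := h2 1
  have h4 := h2 ⟨r ^ 3, pow_mem hr 3⟩
  rw [sum_congr rfl fun i _ => (isClassFunction_isConj hc
    (h.isConj_mul (pow_mem (mem_zpowers x) i))).symm, ha] at h4
  rw [sum_range_succ', sum_congr rfl fun i hi => (by
    simpa using (isClassFunction_isConj hc (h.isConj_pow (i := i + 1) (by omega)
      (by simp at hi; omega))).symm : χ (x ^ (i + 1) * (1 : N[zpowers x])) = χ x), hm] at h3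
  simp only [sum_const, card_range, nsmul_eq_mul, pow_zero, one_mul, OneMemClass.coe_one,
    hd] at h3 h4
  obtain ⟨e, he⟩ := exists_int_of_mul hχ x (m := 7 * m - d) (k := 6) (by norm_num)
    (by push_cast at h3 ⊢; linear_combination -h3)
  have h5 : (d : ℤ) + 6 * e = 7 * m := by
    rw [he] at h3
    have : ((d + 6 * e : ℤ) : ℂ) = (7 * m : ℤ) := by push_cast at h3 ⊢; linear_combination -h3
    exact_mod_cast this
  have h6 := norm_char_le h1 ⟨r ^ 3, pow_mem hr 3⟩
  rw [mul_left_cancel₀ (by norm_num) h4, hm, Complex.norm_intCast, Complex.natCast_re] at h6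
  have h7 : |a| ≤ m := by exact_mod_cast h6
  exact ⟨e, a, he, ha, ⟨m, h5⟩, by omega⟩

end Sev

theorem irr_degree_sq_le (χ : IrrCharacter G) {d : ℕ} (hd : (χ : G → ℂ) 1 = d) :
    d ^ 2 ≤ Nat.card G := by
  have h1 := sum_irr_normSq (1 : G)
  have h2 := single_le_sum (f := fun χ : IrrCharacter G => ‖(χ : G → ℂ) 1‖ ^ 2)
    (fun _ _ => by positivity) (mem_univ χ)
  simp only [h1, hd, Complex.norm_natCast, cent1_one, card_top] at h2
  exact_mod_cast h2

theorem Hyp.exists_hom (h : Hyp G) (hx : Sev x r) : ∃ f : G →* ℂ, f (r ^ 3) = -1 := by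
  classical
  have := Fintype.ofFinite G
  by_contra hc
  obtain ⟨k, hk⟩ := hx.six_dvd
  have hi := C₁[r ^ 3].card_mul_index
  rw [h.card, hk] at hi
  have key : ∀ χ : IrrCharacter G, ∃ (d : ℕ) (e a : ℤ), (χ : G → ℂ) 1 = d ∧ (χ : G → ℂ) x = e ∧
      (χ : G → ℂ) (r ^ 3) = a ∧ (e ≠ 0 → |e| ≤ 2 →
      ((e * e).toNat, e * d, e * a, e * a * a * (1728 / d : ℕ)) ∈ tabA ∧ d ∣ 1728) := by
    intro χ
    have hχ := irr_isCharacter χ.2
    obtain ⟨d, hd0, hd⟩ := irr_one_pos χ.2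
    obtain ⟨e, a, he, ha, h1, h2⟩ := hx.vals hχ hd
    refine ⟨d, e, a, hd, he, ha, fun e0 e2 => ?_⟩
    have h3 := irr_degree_sq_le χ hd
    rw [h.card] at h3
    have h4 : d < 110 := by nlinarith
    have h5 := abs_le.mp e2
    have h5' := abs_le.mp (by omega : |a| ≤ 20)
    refine mem_tabA e (by simp; omega) d (List.mem_range.mpr h4)
      (h.card ▸ irr_degree_dvd_card χ.2 hd) h1 a
      (List.mem_map.mpr ⟨(a + 20).toNat, List.mem_range.mpr (by omega), by omega⟩) h2 ?_ ?_ ?_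
    · obtain ⟨f, hf⟩ := exists_det hχ
      obtain ⟨j, h6, h7⟩ := hf _ hx.sq
      rcases Nat.even_or_odd j with hj | hj
      · obtain ⟨j, rfl⟩ := hj
        rw [ha, hd] at h6
        have : ((d - a : ℤ) : ℂ) = (4 * j : ℤ) := by push_cast at h6 ⊢; linear_combination -h6
        exact ⟨j, by exact_mod_cast this⟩
      · exact absurd ⟨f, by rw [h7, hj.neg_one_pow]⟩ hc
    · rintro rfl
      have h6 := isIntegral_centralChar χ.2 (r ^ 3)
      rw [ha, hd] at h6
      have h7 := int_dvd_of_isIntegral_div (a := C₁[r ^ 3].index * a) (b := 27) (by norm_num)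
        (by simpa using h6)
      by_contra h8
      have h9 : IsCoprime ((3 : ℤ) ^ 3) a :=
        ((Int.prime_three.coprime_iff_not_dvd).mpr h8).pow_left
      obtain ⟨j, hj⟩ := Int.natCast_dvd_natCast.mp (h9.dvd_of_dvd_mul_right h7)
      rw [hj] at hi
      have : 81 * (2 * k * j) = 12096 := by rw [← hi]; ring
      omega
    · rintro rfl
      have h6 := irr_eq_zero_of_defect_zero Nat.prime_two χ.2 hd (g := r ^ 3)
        (fun j hj => by rw [h.card] at hj; omega) (by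
          rw [orderOf_eq_prime (p := 2) (by rw [pow_two, hx.sq]) (hx.not_comm (by norm_num)
            (by norm_num))])
      rw [ha] at h6
      exact_mod_cast h6
  choose d e a hd he ha hT using key
  have hcx : ∀ χ : IrrCharacter G, conj ((χ : G → ℂ) x) = e χ := fun χ => by
    rw [he, map_intCast]
  have s1 : ∑ χ, e χ * e χ = 7 := by
    have := sum_irr_mul_conj x x
    simp only [IsConj.refl, if_true, hx.card_cent, hcx, he, map_intCast] at this
    exact_mod_cast this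
  have s2 : ∑ χ, e χ * d χ = 0 := by
    have := sum_irr_one_mul x
    simp only [hx.ne_one, if_false, hd, he, mul_comm (d _ : ℂ)] at this
    exact_mod_cast this
  have s3 : ∑ χ, e χ * a χ = 0 := by
    have := sum_irr_mul_conj x (r ^ 3)
    rw [if_neg fun hh => by
      have h1 := orderOf_eq_of_isConj hh
      have h2 : orderOf (r ^ 3) ∣ 2 := orderOf_dvd_of_pow_eq_one (by rw [pow_two, hx.sq])
      rw [← h1, hx.ord] at h2
      norm_num at h2] at this
    simp only [hcx, ha, mul_comm (a _ : ℂ)] at this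
    exact_mod_cast this
  have hle : ∀ χ, |e χ| ≤ 2 := fun χ => by
    have := single_le_sum (f := fun χ => e χ * e χ) (fun _ _ => mul_self_nonneg _) (mem_univ χ)
    rw [s1] at this
    exact abs_le.mpr ⟨by nlinarith, by nlinarith⟩
  have s4 : ∑ χ, e χ * a χ * a χ * (1728 / d χ : ℕ) = 36 * k ^ 2 := by
    have := triple_count (r ^ 3) (r ^ 3) x
    rw [hx.ncard_pairs, hk, h.card] at this
    have h2 : ∀ χ : IrrCharacter G, ((e χ * a χ * a χ * (1728 / d χ : ℕ) : ℤ) : ℂ) = 1728 *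
        ((χ : G → ℂ) (r ^ 3) * (χ : G → ℂ) (r ^ 3) / (χ : G → ℂ) 1 * (χ : G → ℂ) x) := fun χ => by
      have h0 := irr_one_ne_zero χ.2
      rw [hd] at h0
      rw [ha, he, hd]
      by_cases e0 : e χ = 0
      · simp [e0]
      · rw [Int.cast_mul, Int.cast_natCast, Nat.cast_div (hT χ e0 (hle χ)).2 h0]
        push_cast
        ring
    have h3 : ((∑ χ, e χ * a χ * a χ * (1728 / d χ : ℕ) : ℤ) : ℂ) = (36 * k ^ 2 : ℤ) := by
      rw [Int.cast_sum, sum_congr rfl fun χ _ => h2 χ, ← mul_sum]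
      push_cast at this ⊢
      linear_combination this / 7
    exact_mod_cast h3
  let o : IrrCharacter G := ⟨1, isIrrCharacter_one'⟩
  have o1 : d o = 1 := by
    have : (1 : ℂ) = _ := hd o
    exact_mod_cast this.symm
  have o2 : e o = 1 := by
    have : (1 : ℂ) = _ := he o
    exact_mod_cast this.symm
  have o3 : a o = 1 := by
    have : (1 : ℂ) = _ := ha o
    exact_mod_cast this.symm
  set S := (univ.erase o).filter fun χ => e χ ≠ 0
  have hS : ∀ g : IrrCharacter G → ℤ, g o + ∑ χ ∈ S, e χ * g χ = ∑ χ, e χ * g χ := fun g => by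
    rw [sum_filter_of_ne fun χ _ h => left_ne_zero_of_mul h, ← add_sum_erase _ _ (mem_univ o), o2,
      one_mul]
  have h1 := srch_sound okA (fun χ => ((e χ * e χ).toNat, e χ * d χ, e χ * a χ,
    e χ * a χ * a χ * (1728 / d χ : ℕ))) tabA (by decide) S (1, 1, 1728)
    (fun χ hχ => (hT χ (mem_filter.mp hχ).2 (hle χ)).1) (by
      have t2 := hS fun χ => d χ
      have t3 := hS a
      have t4 := hS fun χ => a χ * a χ * (1728 / d χ : ℕ)
      simp only [← mul_assoc, s2, s3, s4, o1, o3] at t2 t3 t4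
      simp only [okA, Prod.fst_add, Prod.snd_add, Prod.fst_sum, Prod.snd_sum, Bool.and_eq_true,
        beq_iff_eq, List.any_eq_true, List.mem_range]
      have k0 : k ≠ 0 := by rintro rfl; simp at hi
      have k1 : k ≤ 2016 := Nat.le_of_dvd (by norm_num) ⟨C₁[r ^ 3].index, by linarith⟩
      refine ⟨⟨by simpa using t2, by simpa using t3⟩, k - 1, by omega, ?_⟩
      rw [show ((k - 1 : ℕ) : ℤ) + 1 = k by omega, ← t4]
      simp)
  have h2 : ∑ χ ∈ S, (e χ * e χ).toNat = 6 := by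
    have := hS e
    rw [s1, o2] at this
    have h3 : ((∑ χ ∈ S, (e χ * e χ).toNat : ℕ) : ℤ) = ∑ χ ∈ S, e χ * e χ := by
      push_cast
      exact sum_congr rfl fun χ _ => Int.toNat_of_nonneg (mul_self_nonneg _)
    omega
  simp only [h2, srchA] at h1
  exact absurd h1 (by simp)

theorem Hyp.exists_index_two (h : Hyp G) (hx : Sev x r) :
    ∃ N : Subgroup G, N.index = 2 ∧ x ∈ N ∧ r ^ 2 ∈ N ∧ r ^ 3 ∉ N := by
  obtain ⟨f, hf⟩ := h.exists_hom hx
  let μ : G →* ℂˣ := (powMonoidHom 3).comp f.toHomUnits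
  have hμ : ∀ g, (μ g : ℂ) = f g ^ 3 := fun g => by simp [μ]
  have h1 : x ∈ f.toHomUnits.ker := by
    obtain ⟨c, hc⟩ := isConj_iff.mp (hx.isConj_pow (i := 2) (by norm_num) (by norm_num))
    have := congrArg f.toHomUnits hc
    rw [map_mul, map_mul, map_inv, mul_inv_cancel_comm, map_pow, pow_two, left_eq_mul] at this
    exact this
  have h2 : ∀ g, μ g ^ 2 = 1 := by
    have h3 := Sylow.normalizer_sup_eq_top' (N := f.toHomUnits.ker) (hx.syl h.card.dvd)
      (zpowers_le.mpr h1)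
    have h4 : ⊤ ≤ ((powMonoidHom 2).comp μ).ker := by
      rw [← h3]
      refine sup_le (fun n hn => ?_) fun n hn => ?_
      · obtain ⟨i, h5, h6⟩ := exists_pow_of_mem (conj_mem_of_norm (A := zpowers x) hn
          (mem_zpowers x))
        have h7 := conj_pow_pow h6.symm 6
        rw [hx.ord] at h5
        have h8 : x ^ i ^ 6 = x := by
          have : i ≠ 0 := by
            rintro rfl
            exact hx.ne_one (by simpa using h6.symm)
          rw [← pow_mod_orderOf, hx.ord]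
          interval_cases i <;> simp at this ⊢
        rw [h8, mul_inv_eq_iff_eq_mul] at h7
        have h9 := zpowers_le.mpr h1 (hx.cent _ h7)
        rw [MonoidHom.mem_ker, map_pow] at h9
        simp [MonoidHom.mem_ker, μ, ← pow_mul, h9]
      · rw [MonoidHom.mem_ker] at hn
        simp [MonoidHom.mem_ker, μ, hn]
    exact fun g => h4 (mem_top g)
  have h3 : μ (r ^ 3) = -1 := Units.ext (by rw [hμ, hf]; norm_num)
  refine ⟨μ.ker, index_eq_two_iff.mpr ⟨r ^ 3, fun b => ?_⟩, ?_, ?_, ?_⟩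
  · simp only [MonoidHom.mem_ker, map_mul, h3]
    have h4 : (μ b : ℂ) ^ 2 = 1 := by simpa using congrArg Units.val (h2 b)
    rcases sq_eq_one_iff.mp h4 with e | e <;> simp [Units.ext_iff, e] <;> norm_num
  · rw [MonoidHom.mem_ker] at h1
    simp [MonoidHom.mem_ker, μ, h1]
  · rw [MonoidHom.mem_ker, map_pow, h2]
  · rw [MonoidHom.mem_ker, h3]
    simp

end Cfsg.Agent.G22
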