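import Cfsg.Agent.H9.G2StepA

/-! The character of degree six of the subgroup of index two. -/

set_option autoImplicit false

namespace Cfsg.Agent.G22

open Subgroup Cfsg.Agent.H7 Cfsg.Agent.Fx4 Cfsg.Agent.H3 Cfsg.Agent.L0.SC3 Finset
open scoped ComplexConjugate

universe u
variable {G : Type u} [Group G] [Finite G] {g v x y : G}

/-- hypotheses on the subgroup of index two -/
structure HypN (x : G) : Prop extends SC7 x where
  card : Nat.card G = 6048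
  cj : IsConj x (x ^ 2)
  ncj : ¬ IsConj x x⁻¹
  exp3 : ∀ y : G, y ^ 27 = 1 → y ^ 3 = 1
  nrm : ∀ K : Subgroup G, K.Normal → x ∉ K → K = ⊥

/-- the principal block for the prime seven -/
structure Blk (x : G) (χ₁ χ₂ ψ : G → ℂ) (e₁ e₂ u : ℤ) : Prop where
  i1 : IsIrrCharacter G χ₁
  i2 : IsIrrCharacter G χ₂
  i3 : IsIrrCharacter G ψ
  s1 : e₁ = 1 ∨ e₁ = -1
  s2 : e₂ = 1 ∨ e₂ = -1
  s3 : u = 1 ∨ u = -1
  v1 : χ₁ x = e₁ ∧ χ₁ x⁻¹ = e₁
  v2 : χ₂ x = e₂ ∧ χ₂ x⁻¹ = e₂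
  v3 : ψ x + ψ x⁻¹ = u
  ne : ψ x ≠ ψ x⁻¹
  reg : ∀ g : G, g ^ 24 = 1 → ψ g⁻¹ = ψ g ∧ 1 + e₁ * χ₁ g + e₂ * χ₂ g + u * ψ g = 0
  inv : ∀ v : G, v * v = 1 →
    1 + e₁ * (χ₁ v * χ₁ v / χ₁ 1) + e₂ * (χ₂ v * χ₂ v / χ₂ 1) + u * (ψ v * ψ v / ψ 1) = 0

theorem Blk.swap {χ₁ χ₂ ψ : G → ℂ} {e₁ e₂ u : ℤ} (b : Blk x χ₁ χ₂ ψ e₁ e₂ u) :
    Blk x χ₂ χ₁ ψ e₂ e₁ u :=
  ⟨b.i2, b.i1, b.i3, b.s2, b.s1, b.s3, b.v2, b.v1, b.v3, b.ne,
    fun g hg => ⟨(b.reg g hg).1, by linear_combination (b.reg g hg).2⟩,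
    fun v hv => by linear_combination b.inv v hv⟩

namespace HypN

variable (h : HypN x)
include h

theorem sum_pow {f : G → ℂ} (hf : IsClassFunction G f) :
    ∑ i ∈ range 7, f (x ^ i) = f 1 + 3 * f x + 3 * f x⁻¹ := by
  obtain ⟨c, hc⟩ := isConj_iff.mp h.cj
  have key : ∀ i, f (x ^ (2 * i % 7)) = f (x ^ i) := fun i => by
    rw [← h.ord, pow_mod_orderOf, pow_mul, ← hc, conj_pow, hf]
  have e : x⁻¹ = x ^ 6 := by rw [inv_eq_iff_mul_eq_one, ← pow_succ']; exact h.pow7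
  have h2 : f (x ^ 2) = f (x ^ 1) := key 1
  have h4 : f (x ^ 4) = f (x ^ 2) := key 2
  have h5 : f (x ^ 5) = f (x ^ 6) := key 6
  have h3 : f (x ^ 3) = f (x ^ 5) := key 5
  simp only [sum_range_succ, range_zero, sum_empty, pow_zero, e, h4, h2, h3, h5, pow_one]
  ring

theorem vals {χ : G → ℂ} (hχ : IsCharacter G χ) {d : ℕ} (hd : χ 1 = d) :
    ∃ u s : ℤ, χ x + χ x⁻¹ = u ∧ χ x * χ x⁻¹ = s ∧ (7 : ℤ) ∣ d + 3 * u ∧
      (7 : ℤ) ∣ 4 * s - u ^ 2 ∧ 0 ≤ 4 * s - u ^ 2 ∧ 0 ≤ s := by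
  classical
  have := Fintype.ofFinite G
  obtain ⟨m, hm⟩ := exists_sum_pow hχ h.ord
  have h1 := isCharacter_mul hχ (isCharacter_inv hχ)
  obtain ⟨n, hn⟩ := exists_sum_pow h1 h.ord
  rw [h.sum_pow (char_isClassFunction hχ), hd] at hm
  rw [h.sum_pow (char_isClassFunction h1)] at hn
  simp only [Pi.mul_apply, inv_one, inv_inv, hd] at hn
  obtain ⟨u, hu⟩ := exists_int_of_mul (isCharacter_add hχ (isCharacter_inv hχ)) x
    (m := 7 * m - d) (k := 3) (by norm_num) (by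
      simp only [Pi.add_apply]; push_cast at hm ⊢; linear_combination hm)
  obtain ⟨s, hs⟩ := exists_int_of_mul h1 x (m := 7 * n - d * d) (k := 6) (by norm_num) (by
      simp only [Pi.mul_apply]; push_cast at hn ⊢; linear_combination hn)
  simp only [Pi.add_apply, Pi.mul_apply] at hu hs
  have e1 : (d : ℤ) + 3 * u = 7 * m := by
    have : ((d + 3 * u : ℤ) : ℂ) = (7 * m : ℤ) := by
      push_cast at hm ⊢; linear_combination hm - 3 * hu
    exact_mod_cast this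
  have e2 : (d : ℤ) * d + 6 * s = 7 * n := by
    have : ((d * d + 6 * s : ℤ) : ℂ) = (7 * n : ℤ) := by
      push_cast at hn ⊢; linear_combination hn - 6 * hs
    exact_mod_cast this
  refine ⟨u, s, hu, hs, ⟨m, e1⟩, ⟨4 * s + 5 * u ^ 2 - 4 * n + 4 * m * (7 * m - 6 * u), ?_⟩, ?_, ?_⟩
  · have : (d : ℤ) = 7 * m - 3 * u := by omega
    rw [this] at e2
    linear_combination (-4) * e2
  all_goals
    rw [char_inv hχ] at hu hs
    rw [Complex.add_conj] at hu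
    rw [Complex.mul_conj, Complex.normSq_apply] at hs
    have e3 : 2 * (χ x).re = u := by exact_mod_cast hu
    have e4 : (χ x).re * (χ x).re + (χ x).im * (χ x).im = s := by exact_mod_cast hs
  · have : (0 : ℝ) ≤ 4 * s - u ^ 2 := by rw [← e3, ← e4]; nlinarith [mul_self_nonneg (χ x).im]
    exact_mod_cast this
  · have : (0 : ℝ) ≤ s := e4 ▸ add_nonneg (mul_self_nonneg _) (mul_self_nonneg _)
    exact_mod_cast this

theorem not_conj (hg : g ^ 24 = 1) : ¬ IsConj x g ∧ ¬ IsConj x⁻¹ g := by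
  have h1 := orderOf_dvd_of_pow_eq_one hg
  constructor <;> intro hc <;> have := orderOf_eq_of_isConj hc
  · rw [← this, h.ord] at h1; norm_num at h1
  · rw [← this, orderOf_inv, h.ord] at h1; norm_num at h1

theorem exists_blk : ∃ (χ₁ χ₂ ψ : G → ℂ) (e₁ e₂ u : ℤ), Blk x χ₁ χ₂ ψ e₁ e₂ u := by
  classical
  have := Fintype.ofFinite G
  have key : ∀ χ : IrrCharacter G, ∃ u s : ℤ, (χ : G → ℂ) x + (χ : G → ℂ) x⁻¹ = u ∧
      (χ : G → ℂ) x * (χ : G → ℂ) x⁻¹ = s ∧ (7 : ℤ) ∣ 4 * s - u ^ 2 ∧ 0 ≤ 4 * s - u ^ 2 ∧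
      0 ≤ s := fun χ => by
    obtain ⟨d, hd⟩ := char_one_nat (irr_isCharacter χ.2)
    obtain ⟨u, s, h1, h2, -, h3⟩ := h.vals (irr_isCharacter χ.2) hd
    exact ⟨u, s, h1, h2, h3⟩
  choose u s hu hs h7 h0 hs0 using key
  have hcj : ∀ (χ : IrrCharacter G) (g : G), conj ((χ : G → ℂ) g) = (χ : G → ℂ) g⁻¹ :=
    fun χ g => (char_inv (irr_isCharacter χ.2) g).symm
  have s1 : ∑ χ, s χ = 7 := by
    have := sum_irr_mul_conj x x
    simp only [IsConj.refl, if_true, h.card_cent, hcj, hs] at this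
    exact_mod_cast this
  have s2 : ∑ χ, (4 * s χ - u χ ^ 2) = 14 := by
    have h1 := sum_irr_mul_conj x x⁻¹
    have h2 := sum_irr_mul_conj x⁻¹ x
    rw [if_neg h.ncj] at h1
    rw [if_neg fun hc => h.ncj hc.symm] at h2
    simp only [hcj, inv_inv] at h1 h2
    have h3 : ∀ χ : IrrCharacter G, ((4 * s χ - u χ ^ 2 : ℤ) : ℂ) = 2 * s χ -
        (χ : G → ℂ) x⁻¹ * (χ : G → ℂ) x⁻¹ - (χ : G → ℂ) x * (χ : G → ℂ) x := fun χ => by
      push_cast; rw [← hu, ← hs]; ring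
    have h4 : ((∑ χ, (4 * s χ - u χ ^ 2) : ℤ) : ℂ) = (14 : ℤ) := by
      rw [Int.cast_sum, sum_congr rfl fun χ _ => h3 χ, sum_sub_distrib, sum_sub_distrib, h1, h2,
        ← mul_sum, ← Int.cast_sum, s1]
      norm_num
    exact_mod_cast h4
  have hre : ∀ χ, 4 * s χ - u χ ^ 2 = 0 ↔ (χ : G → ℂ) x = (χ : G → ℂ) x⁻¹ := fun χ => by
    have : ((4 * s χ - u χ ^ 2 : ℤ) : ℂ) = -((χ : G → ℂ) x - (χ : G → ℂ) x⁻¹) ^ 2 := by
      push_cast; rw [← hu, ← hs]; ring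
    rw [← Int.cast_inj (α := ℂ), this]
    simp [sub_eq_zero]
  obtain ⟨ψ, -, hψ⟩ := exists_ne_zero_of_sum_ne_zero (s2.trans_ne (by norm_num))
  let ψ' : IrrCharacter G := ⟨_, isIrrCharacter_conj ψ.2⟩
  have hψ' : ∀ g, (ψ' : G → ℂ) g = (ψ : G → ℂ) g⁻¹ := fun g => hcj ψ g
  have hne : ψ ≠ ψ' := fun e => hψ ((hre ψ).mpr (by rw [← hψ', ← e]))
  have e1 : u ψ' = u ψ := by
    rw [← Int.cast_inj (α := ℂ), ← hu, ← hu, hψ', hψ', inv_inv, add_comm]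
  have e2 : s ψ' = s ψ := by
    rw [← Int.cast_inj (α := ℂ), ← hs, ← hs, hψ', hψ', inv_inv, mul_comm]
  let o : IrrCharacter G := ⟨1, isIrrCharacter_one'⟩
  have ho : ∀ g, (o : G → ℂ) g = 1 := fun _ => rfl
  have o1 : s o = 1 := by rw [← Int.cast_inj (α := ℂ), ← hs, ho, ho]; simp
  have o2 : o ≠ ψ := fun e => hψ (e ▸ (hre o).mpr rfl)
  have o3 : o ≠ ψ' := fun e => hψ (by rw [← e1, ← e2, ← e]; exact (hre o).mpr rfl)
  have split : ∀ {M : Type} [AddCommMonoid M] (F : IrrCharacter G → M), ∑ χ, F χ =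
      F o + F ψ + F ψ' + ∑ χ ∈ univ \ {o, ψ, ψ'}, F χ := fun F => by
    rw [← sum_sdiff (subset_univ {o, ψ, ψ'}), add_comm, sum_insert (by simp [o2, o3]),
      sum_pair hne, ← add_assoc]
  have t1 := split s
  have t2 := split fun χ => 4 * s χ - u χ ^ 2
  have t3 : 0 ≤ ∑ χ ∈ univ \ {o, ψ, ψ'}, s χ := sum_nonneg fun χ _ => hs0 χ
  have t4 : 0 ≤ ∑ χ ∈ univ \ {o, ψ, ψ'}, (4 * s χ - u χ ^ 2) := sum_nonneg fun χ _ => h0 χ
  simp only [s2, (hre o).mpr rfl] at t2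
  simp only [s1, e1, e2, o1] at t1 t2
  have t5 : 4 * s ψ - u ψ ^ 2 = 7 := by have := h7 ψ; have := h0 ψ; omega
  have t6 : s ψ = 2 ∧ (u ψ = 1 ∨ u ψ = -1) := by
    have b1 : u ψ ≤ 2 := by nlinarith
    have b2 : -2 ≤ u ψ := by nlinarith
    generalize u ψ = w at *
    interval_cases w <;> omega
  have t7 := (sum_eq_zero_iff_of_nonneg fun χ _ => h0 χ).mp
    (by omega : ∑ χ ∈ univ \ {o, ψ, ψ'}, (4 * s χ - u χ ^ 2) = 0)
  let n : IrrCharacter G → ℤ := fun χ => if χ ∈ univ \ {o, ψ, ψ'} then u χ / 2 else 0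
  have hn : ∀ χ ∈ univ \ {o, ψ, ψ'}, (χ : G → ℂ) x = n χ ∧ (χ : G → ℂ) x⁻¹ = n χ ∧
      s χ = n χ * n χ := fun χ hχ => by
    have h1 := t7 χ hχ
    obtain ⟨k, hk⟩ : Even (u χ) := (Int.even_pow' two_ne_zero).mp ⟨2 * s χ, by omega⟩
    have h2 : n χ = k := by simp only [n, if_pos hχ]; omega
    have h3 := (hre χ).mp h1
    have h4 := hu χ
    rw [← h3, hk] at h4
    rw [← h3, h2]
    have h5 : (χ : G → ℂ) x = k := by push_cast at h4; linear_combination h4 / 2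
    exact ⟨h5, h5, by rw [hk] at h1; nlinarith⟩
  obtain ⟨a, b, hab, ha, hb, hz⟩ := L0.exists_of_sum_sq_eq_two (n := n) (by
    rw [split, ← sum_congr rfl fun χ hχ => (hn χ hχ).2.2]
    simp only [n, mem_sdiff, mem_insert, mem_singleton, true_or, or_true, not_true, and_false,
      if_false]
    change 0 * 0 + 0 * 0 + 0 * 0 + ∑ χ ∈ _, s χ = 2
    omega)
  have ha' : a ∈ univ \ {o, ψ, ψ'} := by
    by_contra hc
    simp only [n, if_neg hc] at ha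
    omega
  have hb' : b ∈ univ \ {o, ψ, ψ'} := by
    by_contra hc
    simp only [n, if_neg hc] at hb
    omega
  have split2 : ∀ (F : IrrCharacter G → ℂ) (y : G), y = x ∨ y = x⁻¹ →
      ∑ χ, F χ * (χ : G → ℂ) y =
      F o + F ψ * (ψ : G → ℂ) y + F ψ' * (ψ : G → ℂ) y⁻¹ + (n a * F a + n b * F b) := by
    intro F y hy
    have h1 : ∀ χ ∈ univ \ {o, ψ, ψ'}, F χ * (χ : G → ℂ) y = n χ * F χ := fun χ hχ => by
      rcases hy with rfl | rfl
      · rw [(hn χ hχ).1, mul_comm]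
      · rw [(hn χ hχ).2.1, mul_comm]
    rw [split, ho, mul_one, hψ', sum_congr rfl h1, ← sum_pair (f := fun χ => n χ * F χ) hab]
    congr 1
    refine (sum_subset (by simp only [insert_subset_iff, singleton_subset_iff]; exact ⟨ha', hb'⟩)
      fun χ _ hχ => ?_).symm
    simp only [mem_insert, mem_singleton, not_or] at hχ
    simp [hz χ hχ.1 hχ.2]
  have hne' : (ψ : G → ℂ) x ≠ (ψ : G → ℂ) x⁻¹ := fun e => hψ ((hre ψ).mpr e)
  refine ⟨a, b, ψ, n a, n b, u ψ, a.2, b.2, ψ.2, ha, hb, t6.2, ⟨(hn a ha').1, (hn a ha').2.1⟩,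
    ⟨(hn b hb').1, (hn b hb').2.1⟩, hu ψ, hne', fun g hg => ?_, fun v hv => ?_⟩
  · have h1 := sum_irr_mul_conj x g
    have h2 := sum_irr_mul_conj x⁻¹ g
    rw [if_neg (h.not_conj hg).1] at h1
    rw [if_neg (h.not_conj hg).2] at h2
    simp only [hcj, inv_inv] at h1 h2
    rw [split2 _ _ (Or.inr rfl)] at h1
    rw [split2 _ _ (Or.inl rfl)] at h2
    simp only [ho, hψ', inv_inv] at h1 h2
    have h3 : (ψ : G → ℂ) g⁻¹ = (ψ : G → ℂ) g :=
      mul_left_cancel₀ (sub_ne_zero.mpr hne') (by linear_combination h1 - h2)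
    rw [h3] at h1
    exact ⟨h3, by rw [← hu]; linear_combination h1⟩
  · have h1 := triple_count v v x
    have h2 : {a | IsConj v a ∧ IsConj v (a⁻¹ * x⁻¹)} = ∅ := by
      have key : ∀ a, IsConj v a → a⁻¹ = a := fun a ha => by
        obtain ⟨c, rfl⟩ := isConj_iff.mp ha
        exact inv_eq_of_mul_eq_one_right (Fx4.conj_sq hv c)
      refine Set.eq_empty_of_forall_notMem fun a ha => h.ncj (isConj_iff.mpr ⟨a, ?_⟩)
      have e1 := key _ ha.2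
      rw [mul_inv_rev, inv_inv, inv_inv, key _ ha.1] at e1
      rw [mul_assoc, key _ ha.1, e1, ← mul_assoc]
      nth_rewrite 1 [← key _ ha.1]
      simp
    rw [h2, Set.ncard_empty, Nat.cast_zero, mul_zero, split2 _ _ (Or.inl rfl),
      mul_eq_zero, or_iff_right card_ne_zero'] at h1
    simp only [ho, hψ', inv_one, inv_eq_of_mul_eq_one_right hv] at h1
    rw [← hu]
    linear_combination h1

theorem faithful {χ : G → ℂ} (hχ : IsCharacter G χ) (hx : χ x ≠ χ 1) (hg : χ g = χ 1) : g = 1 := by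
  have := h.nrm (charKer hχ) inferInstance fun hh => hx ((mem_charKer hχ).mp hh)
  exact (this ▸ (mem_charKer hχ).mpr hg : g ∈ (⊥ : Subgroup G))

theorem exists_invol : ∃ v : G, v ≠ 1 ∧ v * v = 1 := by
  obtain ⟨v, hv⟩ := exists_prime_orderOf_dvd_card' (G := G) 2 (by rw [h.card]; norm_num)
  exact ⟨v, ne_one_of_orderOf_prime (hv ▸ Nat.prime_two), by
    rw [← pow_two, ← hv, pow_orderOf_eq_one]⟩

theorem deg {χ : G → ℂ} (hχ : IsIrrCharacter G χ) {u : ℤ} (hu : χ x + χ x⁻¹ = u) :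
    ∃ d : ℕ, χ 1 = d ∧ d < 78 ∧ d ∣ 6048 ∧ (7 : ℤ) ∣ d + 3 * u := by
  obtain ⟨d, hd⟩ := char_one_nat (irr_isCharacter hχ)
  obtain ⟨u', s, h1, -, h2, -⟩ := h.vals (irr_isCharacter hχ) hd
  have h3 := irr_degree_sq_le ⟨χ, hχ⟩ hd
  rw [h.card] at h3
  rw [hu, Int.cast_inj] at h1
  exact ⟨d, hd, by nlinarith, h.card ▸ irr_degree_dvd_card hχ hd, h1 ▸ h2⟩

variable {χ₁ χ₂ ψ : G → ℂ} {e₁ e₂ u : ℤ} (b : Blk x χ₁ χ₂ ψ e₁ e₂ u)
include b

theorem faithful3 (hg : ψ g = ψ 1) : g = 1 :=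
  h.faithful (irr_isCharacter b.i3) (fun e => b.ne (by
    obtain ⟨d, hd⟩ := char_one_nat (irr_isCharacter b.i3)
    rw [char_inv (irr_isCharacter b.i3), e, hd, map_natCast])) hg

theorem not_three : ψ 1 ≠ 3 := fun hd => by
  classical
  have := Fintype.ofFinite G
  obtain ⟨P, hP⟩ := Sylow.exists_subgroup_card_pow_prime (G := G) 3 (n := 3)
    (by rw [h.card]; norm_num)
  have h1 := card_dvd_of_vanish (n := 3) (genChar_res P (genChar_of_irr b.i3)) (by simpa using hd)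
    fun g hg => by
      have h2 : (g : G) ^ 3 = 1 := h.exp3 g (by
        have := pow_card_eq_one_of_mem g.2
        rwa [hP] at this)
      have h3 : (g : G) ≠ 1 := fun e => hg (Subtype.ext e)
      obtain ⟨a, m, h4, h5, h6⟩ := val_three (irr_isCharacter b.i3) (orderOf_eq_prime h2 h3)
        (b.reg g (by rw [show 24 = 3 * 8 from rfl, pow_mul, h2, one_pow])).1 (d := 3) hd
      have h7 : a ≠ 3 := fun e => h3 (h.faithful3 b (by rw [h4, hd, e]; rfl))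
      simp only [h4]
      exact_mod_cast (by omega : a = 0)
  rw [hP] at h1
  norm_num at h1

theorem not_cs {d₁ d : ℕ} (h1 : e₁ = 1) (h2 : e₂ = -1) (h3 : u = 1) (hd1 : χ₁ 1 = d₁)
    (hd : ψ 1 = d) (hd2 : χ₂ 1 = (1 + d₁ + d : ℕ)) : False := by
  classical
  have := Fintype.ofFinite G
  obtain ⟨v, v1, v2⟩ := h.exists_invol
  obtain ⟨a₁, ha₁⟩ := exists_int_invol (irr_isCharacter b.i1) v2
  obtain ⟨a₂, ha₂⟩ := exists_int_invol (irr_isCharacter b.i2) v2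
  obtain ⟨a, ha⟩ := exists_int_invol (irr_isCharacter b.i3) v2
  have k1 := (b.reg v (by rw [show 24 = 2 * 12 from rfl, pow_mul, pow_two, v2, one_pow])).2
  have k2 := b.inv v v2
  have n1 := hd1 ▸ irr_one_ne_zero b.i1
  have n2 := hd2 ▸ irr_one_ne_zero b.i2
  have n3 := hd ▸ irr_one_ne_zero b.i3
  rw [h1, h2, h3, ha₁, ha₂, ha] at k1 k2
  rw [hd1, hd2, hd] at k2
  have k3 : (d : ℤ) * d₁ * (a - d) ^ 2 * d₁ + d * d * d₁ * (a₁ - d₁) ^ 2 +
      d * d₁ * (d * a₁ - d₁ * a) ^ 2 = 0 := by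
    rw [← Int.cast_inj (α := ℂ)]
    field_simp at k2
    have : (a₂ : ℂ) = 1 + a₁ + a := by push_cast at k1; linear_combination -k1
    rw [this] at k2
    push_cast at k2 ⊢
    linear_combination d * d₁ * k2
  have p1 : (0 : ℤ) < d₁ := by exact_mod_cast Nat.pos_of_ne_zero (by exact_mod_cast n1)
  have p3 : (0 : ℤ) < d := by exact_mod_cast Nat.pos_of_ne_zero (by exact_mod_cast n3)
  have k4 : (d : ℤ) * d₁ * (a - d) ^ 2 * d₁ = 0 :=
    le_antisymm (by rw [← k3, add_assoc]; exact le_add_of_nonneg_right (by positivity))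
      (by positivity)
  simp only [mul_eq_zero, p1.ne', p3.ne', false_or, or_false, pow_eq_zero_iff two_ne_zero,
    sub_eq_zero] at k4
  exact v1 (h.faithful3 b (by rw [ha, hd, k4, Int.cast_natCast]))

end HypN

/-- the character of degree six -/
structure DatN (χ : G → ℂ) : Prop where
  char : IsCharacter G χ
  one : χ 1 = 6
  inv : ∀ v : G, v ≠ 1 → v * v = 1 → χ v = -2
  six : ∀ g : G, g ^ 24 = 1 → 6 ∣ orderOf g → χ g = 1
  three : ∀ y : G, y ≠ 1 → y ^ 3 = 1 → (χ y = 3 ∧ ¬ 4 ∣ Nat.card C₁[y]) ∨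
    (χ y = 0 ∧ ¬ 2 ∣ Nat.card C₁[y]) ∨ (χ y = -3 ∧ ¬ 8 ∣ Nat.card C₁[y])

theorem HypN.datN_of (h : HypN x) {χ₁ χ₂ ψ : G → ℂ} (b : Blk x χ₁ χ₂ ψ (-1) (-1) 1)
    (h1 : χ₁ 1 = 6) (h2 : χ₂ 1 = 27) (h3 : ψ 1 = 32) : DatN χ₁ := by
  classical
  have := Fintype.ofFinite G
  have z2 : ∀ g : G, 2 ∣ orderOf g → ψ g = 0 := fun g hg => irr_eq_zero_of_defect_zero
    Nat.prime_two b.i3 (n := 32) h3 (fun k hk => by rw [h.card] at hk; omega) hg
  have z3 : ∀ g : G, 3 ∣ orderOf g → χ₂ g = 0 := fun g hg => irr_eq_zero_of_defect_zero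
    Nat.prime_three b.i2 (n := 27) h2 (fun k hk => by rw [h.card] at hk; omega) hg
  refine ⟨irr_isCharacter b.i1, h1, fun v v1 v2 => ?_, fun g hg h6 => ?_, fun y y1 y3 => ?_⟩
  · obtain ⟨a, ha⟩ := exists_int_invol (irr_isCharacter b.i1) v2
    have k0 := z2 v (orderOf_eq_prime (p := 2) (by rw [pow_two, v2]) v1).symm.dvd
    have k1 := (b.reg v (by rw [show 24 = 2 * 12 from rfl, pow_mul, pow_two, v2, one_pow])).2
    have k2 := b.inv v v2
    rw [k0, ha] at k1 k2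
    have k3 : χ₂ v = 1 - a := by push_cast at k1; linear_combination -k1
    rw [k3, h1, h2] at k2
    have k4 : (a + 2) * (11 * a - 26) = 0 := by
      rw [← Int.cast_inj (α := ℂ)]
      push_cast at k2 ⊢
      linear_combination (-54) * k2
    rw [ha]
    exact_mod_cast (by rcases mul_eq_zero.mp k4 with e | e <;> omega : a = -2)
  · have k1 := (b.reg g hg).2
    rw [z2 g (Dvd.dvd.trans (by norm_num) h6), z3 g (Dvd.dvd.trans (by norm_num) h6)] at k1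
    push_cast at k1
    linear_combination -k1
  · have ho : orderOf y = 3 := orderOf_eq_prime y3 y1
    have y24 : y ^ 24 = 1 := by rw [show 24 = 3 * 8 from rfl, pow_mul, y3, one_pow]
    obtain ⟨k0, k1⟩ := b.reg y y24
    have k2 := (b.reg y⁻¹ (by rw [inv_pow, y24, inv_one])).2
    rw [z3 _ ho.symm.dvd] at k1
    rw [z3 _ (by rw [orderOf_inv, ho]), k0] at k2
    obtain ⟨a, m, k3, k4, k5⟩ := val_three (irr_isCharacter b.i1) ho
      (by push_cast at k1 k2; linear_combination k1 - k2) (d := 6) h1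
    have k6 : a ≠ 6 := fun e => y1 (h.faithful (irr_isCharacter b.i1)
      (by rw [b.v1.1, h1]; norm_num) (by rw [k3, h1, e]; rfl))
    have k7 := isIntegral_centralChar b.i3 y
    have k8 : ψ y = (a - 1 : ℤ) := by rw [k3] at k1; push_cast at k1 ⊢; linear_combination k1
    rw [k8, h3] at k7
    have k9 := int_dvd_of_isIntegral_div (a := C₁[y].index * (a - 1)) (b := 32) (by norm_num)
      (by simpa using k7)
    have hi := C₁[y].card_mul_index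
    rw [h.card] at hi
    have key : ∀ i j : ℕ, i * j = 64 → j ∣ C₁[y].index → ¬ i ∣ Nat.card C₁[y] :=
      fun i j hij hj hi' => by
        have := hi ▸ hij ▸ Nat.mul_dvd_mul hi' hj
        norm_num at this
    rw [k3]
    obtain rfl | rfl | rfl : a = 3 ∨ a = 0 ∨ a = -3 := by omega
    · exact Or.inl ⟨by norm_num, key 4 16 rfl (by omega)⟩
    · exact Or.inr (Or.inl ⟨by norm_num, key 2 32 rfl (by omega)⟩)
    · exact Or.inr (Or.inr ⟨by norm_num, key 8 8 rfl (by omega)⟩)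

theorem HypN.exists_datN (h : HypN x) : ∃ χ : G → ℂ, DatN χ := by
  obtain ⟨χ₁, χ₂, ψ, e₁, e₂, u, b⟩ := h.exists_blk
  have k1 : ∀ d : ℕ, d < 78 → d ∣ 6048 → ∀ e ∈ ({1, -1} : Finset ℤ), (7 : ℤ) ∣ d + 3 * (2 * e) →
      e = 1 ∧ (d = 1 ∨ d = 8 ∨ d = 36) ∨ e = -1 ∧ (d = 6 ∨ d = 27 ∨ d = 48) := by
    intro d h1 h2 e he h3
    rcases (by simpa using he : e = 1 ∨ e = -1) with rfl | rfl <;> interval_cases d <;> omega
  have k2 : ∀ d : ℕ, d < 78 → d ∣ 6048 → ∀ e ∈ ({1, -1} : Finset ℤ), (7 : ℤ) ∣ d + 3 * e →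
      e = 1 ∧ (d = 4 ∨ d = 18 ∨ d = 32) ∨ e = -1 ∧ (d = 3 ∨ d = 24) := by
    intro d h1 h2 e he h3
    rcases (by simpa using he : e = 1 ∨ e = -1) with rfl | rfl <;> interval_cases d <;> omega
  obtain ⟨d₁, a1, a2, a3, a4⟩ := h.deg b.i1 (u := 2 * e₁) (by rw [b.v1.1, b.v1.2]; push_cast; ring)
  obtain ⟨d₂, b1, b2, b3, b4⟩ := h.deg b.i2 (u := 2 * e₂) (by rw [b.v2.1, b.v2.2]; push_cast; ring)
  obtain ⟨d, c1, c2, c3, c4⟩ := h.deg b.i3 b.v3
  have a5 := k1 d₁ a2 a3 e₁ (by simpa using b.s1) a4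
  have b5 := k1 d₂ b2 b3 e₂ (by simpa using b.s2) b4
  have c5 := k2 d c2 c3 u (by simpa using b.s3) c4
  have k3 : 1 + e₁ * d₁ + e₂ * d₂ + u * d = 0 := by
    have := (b.reg 1 (one_pow _)).2
    rw [a1, b1, c1] at this
    exact_mod_cast this
  have k4 : d ≠ 3 := fun e => h.not_three b (by rw [c1, e]; rfl)
  have k5 : e₁ = 1 → e₂ = -1 → u = 1 → False := fun h1 h2 h3 =>
    h.not_cs b h1 h2 h3 a1 c1 (by rw [b1]; subst h1 h2 h3; congr 1; omega)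
  have k6 : e₂ = 1 → e₁ = -1 → u = 1 → False := fun h1 h2 h3 =>
    h.not_cs b.swap h1 h2 h3 b1 c1 (by rw [a1]; subst h1 h2 h3; congr 1; omega)
  obtain ⟨rfl, rfl, rfl, rfl, k7⟩ : e₁ = -1 ∧ e₂ = -1 ∧ u = 1 ∧ d = 32 ∧
      (d₁ = 6 ∧ d₂ = 27 ∨ d₁ = 27 ∧ d₂ = 6) := by
    clear a4 b4 c4 k1 k2
    rcases a5 with ⟨rfl, a5⟩ | ⟨rfl, a5⟩ <;> rcases b5 with ⟨rfl, b5⟩ | ⟨rfl, b5⟩ <;>
      rcases c5 with ⟨rfl, c5⟩ | ⟨rfl, c5⟩ <;>
      first | exact (k5 rfl rfl rfl).elim | exact (k6 rfl rfl rfl).elim | omega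
  rcases k7 with ⟨rfl, rfl⟩ | ⟨rfl, rfl⟩
  · exact ⟨_, h.datN_of b a1 b1 c1⟩
  · exact ⟨_, h.datN_of b.swap b1 a1 c1⟩

end Cfsg.Agent.G22
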